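import Mathlib

set_option autoImplicit false

/-!
# Commutative subgroups of order prime to `p`
-/

namespace Cfsg.Agent.H68.JordanP

open Subgroup

variable {G : Type*} [Group G]

/-- A commutative subgroup all of whose elements have order prime to `p`. -/
def AbP (p : ℕ) (A : Subgroup G) : Prop :=
  (∀ x ∈ A, ∀ y ∈ A, x * y = y * x) ∧ ∀ x ∈ A, ¬ p ∣ orderOf x

theorem AbP.mono {p : ℕ} {A B : Subgroup G} (hB : AbP p B) (h : A ≤ B) : AbP p A :=
  ⟨fun x hx y hy => hB.1 x (h hx) y (h hy), fun x hx => hB.2 x (h hx)⟩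

theorem AbP.le_centralizer_singleton {p : ℕ} {A : Subgroup G} (hA : AbP p A) {w : G} (hw : w ∈ A) :
    A ≤ centralizer ({w} : Set G) := fun _ hx =>
  mem_centralizer_iff.2 fun _ hy => by rw [Set.mem_singleton_iff.1 hy]; exact hA.1 w hw _ hx

theorem not_dvd_orderOf_mul {p : ℕ} (hp : p.Prime) {x y : G} (hxy : x * y = y * x)
    (hx : ¬ p ∣ orderOf x) (hy : ¬ p ∣ orderOf y) : ¬ p ∣ orderOf (x * y) := by
  intro h
  have h1 : p ∣ Nat.lcm (orderOf x) (orderOf y) :=
    h.trans (Commute.orderOf_mul_dvd_lcm hxy)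
  have h2 : p ∣ orderOf x * orderOf y := h1.trans (Nat.lcm_dvd_mul _ _)
  exact (hp.dvd_mul.1 h2).elim hx hy

theorem AbP.sup {p : ℕ} (hp : p.Prime) {A B : Subgroup G} (hA : AbP p A) (hB : AbP p B)
    (hAB : ∀ x ∈ A, ∀ y ∈ B, x * y = y * x) : AbP p (A ⊔ B) := by
  have hn : A ≤ normalizer (B : Set G) := fun a ha => mem_normalizer_iff.2 fun b => by
    constructor
    · intro hb
      have : a * b * a⁻¹ = b := by rw [hAB a ha b hb, mul_inv_cancel_right]
      rwa [this]
    · intro hb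
      have h1 := hAB a⁻¹ (inv_mem ha) _ hb
      have : b = a * b * a⁻¹ := by
        calc b = a⁻¹ * (a * b * a⁻¹) * a := by group
          _ = a * b * a⁻¹ := by rw [h1, inv_mul_cancel_right]
      rwa [this]
  have key : ∀ z ∈ A ⊔ B, ∃ a ∈ A, ∃ b ∈ B, a * b = z := by
    intro z hz
    rw [← SetLike.mem_coe, coe_mul_of_left_le_normalizer_right A B hn] at hz
    obtain ⟨a, ha, b, hb, rfl⟩ := Set.mem_mul.1 hz
    exact ⟨a, ha, b, hb, rfl⟩
  constructor
  · intro x hx y hy
    obtain ⟨a, ha, b, hb, rfl⟩ := key x hx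
    obtain ⟨a', ha', b', hb', rfl⟩ := key y hy
    calc a * b * (a' * b') = a * (b * a') * b' := by group
      _ = a * (a' * b) * b' := by rw [hAB a' ha' b hb]
      _ = a' * a * (b' * b) := by rw [hA.1 a' ha' a ha, hB.1 b' hb' b hb]; group
      _ = a' * (a * b') * b := by group
      _ = a' * (b' * a) * b := by rw [hAB a ha b' hb']
      _ = a' * b' * (a * b) := by group
  · intro x hx
    obtain ⟨a, ha, b, hb, rfl⟩ := key x hx
    exact not_dvd_orderOf_mul hp (hAB a ha b hb) (hA.2 a ha) (hB.2 b hb)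

theorem AbP.not_dvd_card [Finite G] {p : ℕ} (hp : p.Prime) {A : Subgroup G} (hA : AbP p A) :
    ¬ p ∣ Nat.card A := by
  intro h
  have := Fact.mk hp
  obtain ⟨x, hx⟩ := exists_prime_orderOf_dvd_card' p h
  refine hA.2 x x.2 ?_
  rw [Subgroup.orderOf_coe, hx]

theorem AbP.map {p : ℕ} {A : Subgroup G} (hA : AbP p A) {G' : Type*} [Group G'] (f : G →* G')
    (hf : Function.Injective f) : AbP p (A.map f) := by
  constructor
  · rintro _ ⟨x, hx, rfl⟩ _ ⟨y, hy, rfl⟩
    rw [← map_mul, ← map_mul, hA.1 x hx y hy]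
  · rintro _ ⟨x, hx, rfl⟩
    rw [orderOf_injective f hf]
    exact hA.2 x hx

/-- In a commutative subgroup, the elements of order prime to `p` form a subgroup. -/
theorem exists_primePart {p : ℕ} (hp : p.Prime) (C : Subgroup G)
    (hC : ∀ x ∈ C, ∀ y ∈ C, x * y = y * x) :
    ∃ E : Subgroup G, ∀ x, x ∈ E ↔ x ∈ C ∧ ¬ p ∣ orderOf x :=
  ⟨{ carrier := {x | x ∈ C ∧ ¬ p ∣ orderOf x}
     one_mem' := ⟨one_mem C, by rw [orderOf_one]; exact hp.not_dvd_one⟩
     mul_mem' := fun {a b} ha hb =>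
       ⟨mul_mem ha.1 hb.1, not_dvd_orderOf_mul hp (hC a ha.1 b hb.1) ha.2 hb.2⟩
     inv_mem' := fun {a} ha => ⟨inv_mem ha.1, by rw [orderOf_inv]; exact ha.2⟩ },
    fun _ => Iff.rfl⟩

/-! ### Indices -/

variable [Finite G]

theorem relIndex_ne_zero' (H K : Subgroup G) : H.relIndex K ≠ 0 :=
  Subgroup.index_ne_zero_of_finite

theorem relIndex_le_right' {H K L : Subgroup G} (h : K ≤ L) : H.relIndex K ≤ H.relIndex L :=
  Subgroup.relIndex_le_of_le_right h (relIndex_ne_zero' H L)

theorem relIndex_le_left' {H K L : Subgroup G} (h : H ≤ K) : K.relIndex L ≤ H.relIndex L :=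
  Subgroup.relIndex_le_of_le_left h (relIndex_ne_zero' H L)

theorem relIndex_trans_le (A B C : Subgroup G) :
    C.relIndex A ≤ B.relIndex A * C.relIndex B := by
  calc C.relIndex A ≤ (C ⊓ (B ⊓ A)).relIndex A := relIndex_le_left' inf_le_left
    _ = (C ⊓ (B ⊓ A)).relIndex (B ⊓ A) * (B ⊓ A).relIndex A :=
        (Subgroup.relIndex_mul_relIndex _ _ _ inf_le_right inf_le_right).symm
    _ = C.relIndex (B ⊓ A) * B.relIndex A := by
        rw [Subgroup.inf_relIndex_right, Subgroup.inf_relIndex_right]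
    _ ≤ C.relIndex B * B.relIndex A := Nat.mul_le_mul (relIndex_le_right' inf_le_left) le_rfl
    _ = B.relIndex A * C.relIndex B := Nat.mul_comm _ _

omit [Finite G] in
theorem card_inf_mul_relIndex (A B : Subgroup G) :
    Nat.card (B ⊓ A : Subgroup G) * B.relIndex A = Nat.card A := by
  rw [← Subgroup.inf_relIndex_right B A]
  exact Subgroup.card_mul_index ((B ⊓ A).subgroupOf A) ▸ by
    rw [Subgroup.relIndex, Nat.card_congr (Subgroup.subgroupOfEquivOfLe inf_le_right).toEquiv]

theorem card_le_of_relIndex {A B : Subgroup G} {k : ℕ} (h : B.relIndex A ≤ k) :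
    Nat.card A ≤ k * Nat.card B := by
  rw [← card_inf_mul_relIndex A B, Nat.mul_comm k]
  exact Nat.mul_le_mul (Subgroup.card_le_of_le inf_le_left) h

omit [Finite G] in
/-- The index of the normal core divides the factorial of the index. -/
theorem index_normalCore_dvd (H : Subgroup G) [H.FiniteIndex] :
    H.normalCore.index ∣ H.index.factorial := by
  classical
  rw [Subgroup.normalCore_eq_ker, Subgroup.index_ker]
  have h := Subgroup.card_subgroup_dvd_card (MulAction.toPermHom G (G ⧸ H)).range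
  rwa [Nat.card_perm, ← Subgroup.index_eq_card] at h

end Cfsg.Agent.H68.JordanP
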