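import Mathlib

set_option autoImplicit false

/-!
# A boundedness lemma on sums of unit fractions
-/

namespace Cfsg.Agent.H68.JordanP

/-- If `∑ 1 / aᵢ - 1 / g` has bounded denominator, the number of terms is bounded and all
`aᵢ ≤ g`, then some `aᵢ` equals `g` or `g` is bounded. -/
theorem egypt_bound (r : ℕ) : ∀ L : ℕ, ∃ B : ℕ, ∀ (s : Multiset ℕ) (g L' : ℕ) (q : ℤ),
    Multiset.card s ≤ r → 0 < g → (∀ a ∈ s, 0 < a ∧ a ≤ g) → 0 < L' → L' ≤ L →
    (s.map fun a : ℕ => (1 : ℚ) / a).sum - 1 / g = q / L' → g ∈ s ∨ g ≤ B := by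
  induction r with
  | zero =>
    intro L
    refine ⟨L, fun s g L' q hs hg _ hL' hLL h => Or.inr ?_⟩
    obtain rfl : s = 0 := Multiset.card_eq_zero.1 (Nat.le_zero.1 hs)
    simp only [Multiset.map_zero, Multiset.sum_zero, zero_sub] at h
    have hg' : (0 : ℚ) < g := by exact_mod_cast hg
    have hL0 : (0 : ℚ) < L' := by exact_mod_cast hL'
    have hq : (q : ℚ) * g = -(L' : ℚ) := by
      field_simp at h
      linarith
    have hq' : q * (g : ℤ) = -(L' : ℤ) := by exact_mod_cast hq
    have : g ∣ L' := by
      have : (g : ℤ) ∣ (L' : ℤ) := ⟨-q, by linarith⟩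
      exact_mod_cast this
    exact (Nat.le_of_dvd hL' this).trans hLL
  | succ r ih =>
    intro L
    obtain ⟨B, hB⟩ := ih (L * ((r + 1) * L))
    refine ⟨max L B, fun s g L' q hs hg ha hL' hLL h => ?_⟩
    have hg' : (0 : ℚ) < g := by exact_mod_cast hg
    have hL0 : (0 : ℚ) < L' := by exact_mod_cast hL'
    rcases Nat.lt_or_ge (Multiset.card s) (r + 1) with hlt | hge
    · refine (hB s g L' q (by omega) hg ha hL' (hLL.trans ?_) h).imp_right
        fun hh => hh.trans (le_max_right _ _)
      rcases Nat.eq_zero_or_pos L with h0 | h0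
      · omega
      · exact Nat.le_mul_of_pos_right L (Nat.mul_pos (Nat.succ_pos r) h0)
    have hnn : 0 ≤ (s.map fun a : ℕ => (1 : ℚ) / a).sum := by
      refine Multiset.sum_nonneg ?_
      intro x hx
      obtain ⟨a, -, rfl⟩ := Multiset.mem_map.1 hx
      positivity
    rcases lt_trichotomy q 0 with hq | hq | hq
    · refine Or.inr (le_trans ?_ ((hLL.trans (le_max_left _ _))))
      have h1 : (q : ℚ) / L' ≤ -1 / L' := by
        gcongr
        exact_mod_cast (show q ≤ -1 by omega)
      have h2 : (1 : ℚ) / L' ≤ 1 / g := by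
        have : -1 / (L' : ℚ) = -(1 / L') := by ring
        linarith
      exact_mod_cast (one_div_le_one_div hL0 hg').1 h2
    · obtain ⟨a, ha'⟩ := Multiset.exists_mem_of_ne_zero (s := s) (by
        rintro rfl
        simp at hge)
      obtain ⟨hapos, hag⟩ := ha a ha'
      refine Or.inl ?_
      have hle : (1 : ℚ) / a ≤ (s.map fun a : ℕ => (1 : ℚ) / a).sum := by
        refine Multiset.single_le_sum ?_ _ (Multiset.mem_map_of_mem _ ha')
        intro x hx
        obtain ⟨b, -, rfl⟩ := Multiset.mem_map.1 hx
        positivity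
      subst hq
      simp only [Int.cast_zero, zero_div] at h
      have ha0 : (0 : ℚ) < a := by exact_mod_cast hapos
      have : (g : ℚ) ≤ a := (one_div_le_one_div ha0 hg').1 (by linarith)
      have : g ≤ a := by exact_mod_cast this
      obtain rfl : g = a := le_antisymm this hag
      exact ha'
    · have hsum : (1 : ℚ) / L' ≤ (s.map fun a : ℕ => (1 : ℚ) / a).sum := by
        have h1 : (1 : ℚ) / L' ≤ q / L' := by
          gcongr
          exact_mod_cast (show (1 : ℤ) ≤ q by omega)
        have : (0 : ℚ) < 1 / g := by positivity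
        linarith
      have hex : ∃ a ∈ s, a ≤ (r + 1) * L' := by
        by_contra hcon
        push Not at hcon
        have hr : (0 : ℚ) < ((r + 1) * L' + 1 : ℕ) := by positivity
        have hb := Multiset.sum_le_card_nsmul (s.map fun a : ℕ => (1 : ℚ) / a)
          (1 / ((r + 1) * L' + 1 : ℕ)) (by
            intro x hx
            obtain ⟨b, hb, rfl⟩ := Multiset.mem_map.1 hx
            refine one_div_le_one_div_of_le hr ?_
            exact_mod_cast hcon b hb)
        rw [Multiset.card_map, nsmul_eq_mul] at hb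
        have hc : (Multiset.card s : ℚ) ≤ (r + 1 : ℕ) := by exact_mod_cast hs
        have h3 : (1 : ℚ) / L' ≤ ((r + 1 : ℕ) : ℚ) * (1 / ((r + 1) * L' + 1 : ℕ)) :=
          hsum.trans (hb.trans (by gcongr))
        rw [mul_one_div, div_le_div_iff₀ hL0 hr] at h3
        push_cast at h3
        linarith
      obtain ⟨a, has, hale⟩ := hex
      obtain ⟨hapos, hag⟩ := ha a has
      have ha0 : (0 : ℚ) < a := by exact_mod_cast hapos
      have hsplit : (s.map fun a : ℕ => (1 : ℚ) / a).sum
          = 1 / a + ((s.erase a).map fun a : ℕ => (1 : ℚ) / a).sum := by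
        conv_lhs => rw [← Multiset.cons_erase has, Multiset.map_cons, Multiset.sum_cons]
      have key : ((s.erase a).map fun a : ℕ => (1 : ℚ) / a).sum - 1 / g
          = ((q * a - L' : ℤ) : ℚ) / ((L' * a : ℕ) : ℚ) := by
        have : ((s.erase a).map fun a : ℕ => (1 : ℚ) / a).sum - 1 / g = q / L' - 1 / a := by
          linarith
        rw [this]
        push_cast
        field_simp
      refine (hB (s.erase a) g (L' * a) _ ?_ hg (fun b hb => ha b (Multiset.mem_of_mem_erase hb))
        (Nat.mul_pos hL' hapos) ?_ key).imp (Multiset.mem_of_mem_erase)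
          fun hh => hh.trans (le_max_right _ _)
      · rw [Multiset.card_erase_of_mem has, Nat.pred_eq_sub_one]
        omega
      · exact Nat.mul_le_mul hLL (hale.trans (Nat.mul_le_mul le_rfl hLL))

end Cfsg.Agent.H68.JordanP
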