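import Cfsg.Agent.H68.JordanP.Families
import Cfsg.Agent.H68.JordanP.Egypt

set_option autoImplicit false
set_option linter.unusedSectionVars false

/-!
# The class equation

The non-central elements are either small, with bounded centraliser, or belong to exactly one
conjugate of the stabiliser of a family; counting them gives the bound.
-/

namespace Cfsg.Agent.H68.JordanP

open Subgroup
open scoped commutatorElement

variable {p c b n R : ℕ} {G : Type*} [Group G] [Finite G]

theorem card_eq_sum_ite {α : Type*} [Fintype α] (Y : Set α) [∀ x, Decidable (x ∈ Y)] :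
    Nat.card Y = ∑ x, (if x ∈ Y then 1 else 0) := by
  classical
  rw [Finset.sum_boole, Nat.cast_id, Nat.card_eq_fintype_card, ← Set.toFinset_card]
  congr 1
  ext x
  simp

theorem card_eq_mul_relIndex {H K : Subgroup G} (h : H ≤ K) :
    Nat.card K = Nat.card H * H.relIndex K := by
  rw [← card_inf_mul_relIndex K H, inf_eq_left.2 h]

/-- A set invariant under right multiplication by `W` consists of whole cosets. -/
theorem card_of_mul_invariant (W : Subgroup G) (X : Set G)
    (hX : ∀ x ∈ X, ∀ w ∈ W, x * w ∈ X) :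
    Nat.card X = Nat.card W * Nat.card (((↑) : G → G ⧸ W) '' X) := by
  have heq : ((↑) : G → G ⧸ W) ⁻¹' (((↑) : G → G ⧸ W) '' X) = X := by
    refine le_antisymm ?_ (Set.subset_preimage_image _ _)
    rintro x ⟨y, hy, hyx⟩
    have := hX y hy _ (QuotientGroup.eq.1 hyx)
    simpa using this
  conv_lhs => rw [← heq]
  rw [Nat.card_congr (QuotientGroup.preimageMkEquivSubgroupProdSet W _), Nat.card_prod]

/-- A conjugation-invariant set of elements with small centralisers is divisible by the order of
the group, up to a bounded factor. -/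
theorem dvd_mul_ncard {Q : Type*} [Group Q] [Finite Q] (L : ℕ) :
    ∀ (m : ℕ) (X : Set Q), X.ncard ≤ m → (∀ g : Q, ∀ x ∈ X, g * x * g⁻¹ ∈ X) →
      (∀ x ∈ X, Nat.card (MulAction.stabilizer (ConjAct Q) x) ∣ L) →
      Nat.card Q ∣ L * X.ncard := by
  intro m
  induction m with
  | zero =>
    intro X hX _ _
    simp [Nat.le_zero.1 hX]
  | succ m ih =>
    intro X hX hinv hst
    rcases X.eq_empty_or_nonempty with rfl | ⟨x, hx⟩
    · simp
    set O := MulAction.orbit (ConjAct Q) x with hO
    have hOX : O ⊆ X := by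
      rintro _ ⟨g, rfl⟩
      simp only [ConjAct.smul_def]
      exact hinv _ x hx
    have hrest : Nat.card Q ∣ L * (X \ O).ncard := by
      refine ih _ ?_ ?_ fun y hy => hst y hy.1
      · have : (X \ O).ncard < X.ncard := Set.ncard_lt_ncard
          ⟨Set.sdiff_subset, fun h => (h hx).2 (MulAction.mem_orbit_self x)⟩ (Set.toFinite _)
        omega
      · rintro g y ⟨hy, hyO⟩
        refine ⟨hinv g y hy, fun h => hyO ?_⟩
        have h2 : ConjAct.toConjAct g • y ∈ O := by rwa [ConjAct.toConjAct_smul]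
        exact (MulAction.mem_orbit_iff.2 ⟨ConjAct.toConjAct g⁻¹ * h2.choose, by
          rw [mul_smul]
          have := h2.choose_spec
          simp only at this
          rw [this, ← mul_smul, ← map_mul, inv_mul_cancel, map_one, one_smul]⟩)
    have horb : Nat.card Q ∣ L * O.ncard := by
      obtain ⟨e, he⟩ := hst x hx
      refine ⟨e, ?_⟩
      have h1 := Nat.card_congr (MulAction.orbitEquivQuotientStabilizer (ConjAct Q) x)
      rw [← Subgroup.index_eq_card, Nat.card_coe_set_eq] at h1
      rw [hO, h1, he, ← Subgroup.card_mul_index (MulAction.stabilizer (ConjAct Q) x)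
        |>.trans (Nat.card_congr ConjAct.ofConjAct.toEquiv)]
      ring
    rw [← Set.ncard_sdiff_add_ncard_of_subset hOX, mul_add]
    exact dvd_add hrest horb

namespace Ctx

variable (κ : Ctx p c b n R G)
include κ

set_option maxHeartbeats 2000000 in
/-- The class equation argument. -/
theorem count (B : ℕ)
    (hB : ∀ (s : Multiset ℕ) (g L' : ℕ) (q : ℤ),
      Multiset.card s ≤ 2 * dd b c → 0 < g → (∀ a ∈ s, 0 < a ∧ a ≤ g) → 0 < L' →
      L' ≤ (n * (c * Kr b c R)).factorial * (dd b c).factorial →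
      (s.map fun a : ℕ => (1 : ℚ) / a).sum - 1 / g = q / L' → g ∈ s ∨ g ≤ B) :
    ∃ A : Subgroup G, AbP p A ∧ A.index ≤ max B (dd b c) := by
  classical
  have hc := κ.hc
  set z := Nat.card (center G) with hz
  have hzpos : 0 < z := Nat.card_pos
  set d := dd b c with hd
  have hdpos : 0 < d := Nat.factorial_pos _
  -- the families up to conjugacy
  let rel : {T : Subgroup G // IsRoot p c b R T} → {T : Subgroup G // IsRoot p c b R T} → Prop :=
    fun T U => ∃ h : G, Meet (cj h T.1) U.1
  have hrel : Equivalence rel := by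
    refine ⟨fun T => ⟨1, by rw [cj_one]; exact κ.meet_self T.2⟩, ?_, ?_⟩
    · rintro T U ⟨h, hh⟩
      refine ⟨h⁻¹, ?_⟩
      have := (Meet.cj hh h⁻¹).symm
      rwa [← cj_mul, inv_mul_cancel, cj_one] at this
    · rintro T U V ⟨h, hh⟩ ⟨k, hk⟩
      refine ⟨k * h, ?_⟩
      rw [cj_mul]
      exact κ.meet_trans ((T.2.cj h).cj k) (U.2.cj k) V.2 (Meet.cj hh k) hk
  let st : Setoid {T : Subgroup G // IsRoot p c b R T} := ⟨rel, hrel⟩
  let I := Quotient st
  have : Fintype I := Fintype.ofFinite I
  let T : I → Subgroup G := fun i => i.out.1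
  have hT : ∀ i, IsRoot p c b R (T i) := fun i => i.out.2
  choose W hWN hZW hWab hWinv hWi hTW using fun i => κ.exists_core (hT i)
  let N : I → Subgroup G := fun i => κ.stab (hT i)
  have hWbig : ∀ i, MM c * z < Nat.card (W i) := by
    intro i
    have h1 : Nat.card (T i) ≤ d * Nat.card (W i) :=
      card_le_of_relIndex ((relIndex_le_right' (κ.root_le_stab (hT i))).trans (hWi i))
    have h2 : d * MM c * z < Nat.card (T i) := (hT i).big (dd_mul_MM_le_Kr hc)
    rw [mul_assoc] at h2
    exact Nat.lt_of_mul_lt_mul_left (h2.trans_le h1)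
  let Rs : I → Set G := fun i => {x | x ∈ N i ∧ x ∉ center G ∧
    MM c * z < Nat.card (W i ⊓ centralizer ({x} : Set G) : Subgroup G)}
  let X : I → Set G := fun i => {x | ∃ h : G, h⁻¹ * x * h ∈ Rs i}
  have hcz : ∀ (h x : G), h⁻¹ * x * h ∈ center G ↔ x ∈ center G := by
    intro h x
    constructor
    · intro hh
      have := (inferInstance : (center G).Normal).conj_mem _ hh h
      simpa [mul_assoc] using this
    · intro hh
      have := (inferInstance : (center G).Normal).conj_mem _ hh h⁻¹
      simpa using this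
  have hXZ : ∀ i, ∀ x ∈ X i, x ∉ center G := by
    rintro i x ⟨h, hh⟩ hx
    exact hh.2.1 ((hcz h x).2 hx)
  -- uniqueness of the family
  have huniq : ∀ {i j : I} {x h k : G}, h⁻¹ * x * h ∈ Rs i → k⁻¹ * x * k ∈ Rs j →
      Meet (cj (k⁻¹ * h) (T i)) (T j) := by
    intro i j x h k hi hj
    have hx : x ∉ center G := fun hx => hi.2.1 ((hcz h x).2 hx)
    have hC : ∀ (h : G) (A : Subgroup G), A ≤ centralizer ({h⁻¹ * x * h} : Set G) →
        cj h A ≤ centralizer ({x} : Set G) := by
      intro h A hA y hy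
      have := mem_centralizer_singleton_iff.1 (hA (mem_cj.1 hy))
      refine mem_centralizer_singleton_iff.2 ?_
      calc y * x = h * (h⁻¹ * y * h * (h⁻¹ * x * h)) * h⁻¹ := by group
        _ = h * (h⁻¹ * x * h * (h⁻¹ * y * h)) * h⁻¹ := by rw [this]
        _ = x * y := by group
    have hm := κ.meet_of_large ((hT i).cj h) ((hT j).cj k) hx
      (hC h (W i ⊓ centralizer ({h⁻¹ * x * h} : Set G)) inf_le_right)
      (hC k (W j ⊓ centralizer ({k⁻¹ * x * k} : Set G)) inf_le_right)
      (by rw [relIndex_cj]; exact (relIndex_le_right' inf_le_left).trans (hTW i))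
      (by rw [relIndex_cj]; exact (relIndex_le_right' inf_le_left).trans (hTW j))
      (by rw [card_cj]; exact hi.2.2) (by rw [card_cj]; exact hj.2.2)
    have := Meet.cj hm k⁻¹
    rwa [← cj_mul, ← cj_mul, inv_mul_cancel, cj_one] at this
  have hXdisj : ∀ {i j : I} {x : G}, x ∈ X i → x ∈ X j → i = j := by
    rintro i j x ⟨h, hh⟩ ⟨k, hk⟩
    have hr : rel i.out j.out := ⟨k⁻¹ * h, huniq hh hk⟩
    rw [← Quotient.out_eq i, ← Quotient.out_eq j]
    exact Quotient.sound hr
  let S : Set G := {x | x ∉ center G ∧ ∀ i, x ∉ X i}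
  -- elements outside all families have small centralisers
  have hsmall : ∀ x ∈ S, Nat.card (centralizer ({x} : Set G)) ≤ c * Kr b c R * z := by
    rintro x ⟨hxZ, hxX⟩
    by_contra hcon
    push Not at hcon
    obtain ⟨A, hA, hAC, hAi⟩ := κ.hC x hxZ
    have hAbig : Kr b c R * z < Nat.card A := by
      by_contra hle
      push Not at hle
      have h1 := card_le_of_relIndex hAi
      have h2 := Nat.mul_le_mul (le_refl c) hle
      rw [← mul_assoc] at h2
      omega
    obtain ⟨U, hUtop, hAU⟩ := exists_isTop hc hA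
    have hU : IsRoot p c b R U := ⟨A, hA, hAbig, hAU, hUtop⟩
    let i : I := Quotient.mk st ⟨U, hU⟩
    obtain ⟨h, hh⟩ : rel i.out ⟨U, hU⟩ := Quotient.exact (Quotient.out_eq i)
    refine hxX i ⟨h, ?_⟩
    set x1 := h⁻¹ * x * h with hx1
    have hmeet : Meet (T i) (cj h⁻¹ U) := by
      have := Meet.cj hh h⁻¹
      rwa [← cj_mul, inv_mul_cancel, cj_one] at this
    have hTA : (T i).relIndex (cj h⁻¹ A) ≤ c ^ 4 := by
      refine (relIndex_trans_le (cj h⁻¹ A) (cj h⁻¹ U) (T i)).trans ?_
      calc (cj h⁻¹ U).relIndex (cj h⁻¹ A) * (T i).relIndex (cj h⁻¹ U) ≤ c * c ^ 3 :=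
            Nat.mul_le_mul (hUtop.cj h⁻¹).2.1
              (κ.relIndex_root (hT i) (hU.cj h⁻¹).abP hmeet)
        _ = c ^ 4 := by ring
    have hA1C : cj h⁻¹ A ≤ centralizer ({x1} : Set G) := by
      intro y hy
      have := mem_centralizer_singleton_iff.1 (hAC (mem_cj.1 hy))
      refine mem_centralizer_singleton_iff.2 ?_
      simp only [inv_inv] at this
      calc y * x1 = h⁻¹ * (h * y * h⁻¹ * x) * h := by rw [hx1]; group
        _ = h⁻¹ * (x * (h * y * h⁻¹)) * h := by rw [this]
        _ = x1 * y := by rw [hx1]; group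
    have hA1big : Kr b c R * z < Nat.card (cj h⁻¹ A) := by rwa [card_cj]
    obtain ⟨w, hwA, hwT, hwZ⟩ := exists_mem_of_relIndex hTA
      (lt_of_le_of_lt (Nat.mul_le_mul ((pow_le_MM hc (by omega)).trans (MM_le_Kr hc)) le_rfl)
        hA1big)
    have hx1N : x1 ∈ N i := κ.mem_stab_of_commute (hT i) hwT hwZ
      (mem_centralizer_singleton_iff.1 (hA1C hwA)).symm
    have hA1N : cj h⁻¹ A ≤ N i := fun y hy =>
      κ.mem_stab_of_commute (hT i) hwT hwZ ((hA.cj h⁻¹).1 y hy w hwA)
    refine ⟨hx1N, fun hh' => hxZ ((hcz h x).1 hh'), ?_⟩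
    have h1 : Nat.card (cj h⁻¹ A) ≤
        d * Nat.card (W i ⊓ centralizer ({x1} : Set G) : Subgroup G) := by
      rw [← card_inf_mul_relIndex (cj h⁻¹ A) (W i), Nat.mul_comm d]
      exact Nat.mul_le_mul (Subgroup.card_le_of_le (le_inf inf_le_left (inf_le_right.trans hA1C)))
        ((relIndex_le_right' hA1N).trans (hWi i))
    have h2 : d * MM c * z < Nat.card (cj h⁻¹ A) :=
      lt_of_le_of_lt (Nat.mul_le_mul (dd_mul_MM_le_Kr hc) le_rfl) hA1big
    rw [mul_assoc] at h2
    exact Nat.lt_of_mul_lt_mul_left (h2.trans_le h1)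
  -- the small elements
  have hSconj : ∀ g : G, ∀ x ∈ S, g * x * g⁻¹ ∈ S := by
    rintro g x ⟨hxZ, hxX⟩
    refine ⟨fun h => hxZ ?_, fun i hi => hxX i ?_⟩
    · have := (hcz g (g * x * g⁻¹)).2 h
      simpa [mul_assoc] using this
    · obtain ⟨h, hh⟩ := hi
      refine ⟨g⁻¹ * h, ?_⟩
      simpa [mul_assoc] using hh
  have hcentralmul : ∀ {x w : G}, w ∈ center G →
      centralizer ({x * w} : Set G) = centralizer ({x} : Set G) := by
    intro x w hw
    ext y
    simp only [mem_centralizer_singleton_iff]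
    have hyw : y * w = w * y := mem_center_iff.1 hw y
    constructor
    · intro h
      refine mul_right_cancel (b := w) ?_
      calc y * x * w = y * (x * w) := mul_assoc _ _ _
        _ = x * w * y := h
        _ = x * y * w := by rw [mul_assoc, ← hyw, ← mul_assoc]
    · intro h
      rw [← mul_assoc, h, mul_assoc, hyw, ← mul_assoc]
  have hRmulZ : ∀ i, ∀ x ∈ Rs i, ∀ w ∈ center G, x * w ∈ Rs i := by
    rintro i x ⟨h1, h2, h3⟩ w hw
    refine ⟨mul_mem h1 (κ.center_le_stab (hT i) hw), fun h => h2 ?_, ?_⟩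
    · simpa using mul_mem h (inv_mem hw)
    · rwa [hcentralmul hw]
  have hSmulZ : ∀ x ∈ S, ∀ w ∈ center G, x * w ∈ S := by
    rintro x ⟨hxZ, hxX⟩ w hw
    refine ⟨fun h => hxZ (by simpa using mul_mem h (inv_mem hw)), fun i hi => hxX i ?_⟩
    obtain ⟨h, hh⟩ := hi
    refine ⟨h, ?_⟩
    have hw' := hRmulZ i _ hh w⁻¹ (inv_mem hw)
    have hcom : h * w⁻¹ = w⁻¹ * h := mem_center_iff.1 (inv_mem hw) h
    have : h⁻¹ * (x * w) * h * w⁻¹ = h⁻¹ * x * h := by
      rw [mul_assoc _ h w⁻¹, hcom]
      group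
    rwa [this] at hw'
  set gI := (center G).index with hgI
  have hcardG : Nat.card G = z * gI := (Subgroup.card_mul_index (center G)).symm
  have hgIpos : 0 < gI := Nat.pos_of_ne_zero Subgroup.index_ne_zero_of_finite
  set L := (n * (c * Kr b c R)).factorial with hL
  let Sb : Set (G ⧸ center G) := ((↑) : G → G ⧸ center G) '' S
  have hScard : Nat.card S = z * Nat.card Sb := card_of_mul_invariant _ S hSmulZ
  have hSdvd : gI ∣ L * Nat.card Sb := by
    rw [Nat.card_coe_set_eq, hgI, Subgroup.index_eq_card]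
    refine dvd_mul_ncard L _ Sb le_rfl ?_ ?_
    · intro g y hy
      obtain ⟨x, hx, rfl⟩ := hy
      obtain ⟨g, rfl⟩ := QuotientGroup.mk_surjective g
      exact ⟨g * x * g⁻¹, hSconj g x hx, by simp⟩
    · intro y hy
      obtain ⟨x, hx, rfl⟩ := hy
      set St := MulAction.stabilizer (ConjAct (G ⧸ center G)) (x : G ⧸ center G) with hStdef
      have : Finite (ConjAct (G ⧸ center G)) :=
        Finite.of_equiv (G ⧸ center G) ConjAct.toConjAct.toEquiv
      let St' : Set (G ⧸ center G) := {y | ConjAct.toConjAct y ∈ St}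
      have hSt' : Nat.card St' = Nat.card St :=
        Nat.card_congr (Equiv.subtypeEquiv ConjAct.toConjAct.toEquiv fun _ => Iff.rfl)
      have hmemP : ∀ g : G, (g : G ⧸ center G) ∈ St' ↔ ⁅g, x⁆ ∈ center G := by
        intro g
        simp only [St', hStdef, Set.mem_ofPred_eq, MulAction.mem_stabilizer_iff,
          ConjAct.toConjAct_smul]
        rw [← QuotientGroup.mk_mul, ← QuotientGroup.mk_inv, ← QuotientGroup.mk_mul,
          QuotientGroup.eq_iff_div_mem, commutatorElement_def, div_eq_mul_inv]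
      have hPcard : Nat.card {g : G // ⁅g, x⁆ ∈ center G} = z * Nat.card St := by
        rw [← hSt', ← Nat.card_congr (Equiv.subtypeEquivRight hmemP), hz, ← Nat.card_prod]
        exact Nat.card_congr (QuotientGroup.preimageMkEquivSubgroupProdSet (center G) St')
      have hle : Nat.card St ≤ n * (c * Kr b c R) := by
        refine Nat.le_of_mul_le_mul_left ?_ hzpos
        rw [← hPcard]
        calc Nat.card {g : G // ⁅g, x⁆ ∈ center G}
            ≤ n * Nat.card (centralizer ({x} : Set G)) := κ.hcomm x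
          _ ≤ n * (c * Kr b c R * z) := Nat.mul_le_mul le_rfl (hsmall x hx)
          _ = z * (n * (c * Kr b c R)) := by ring
      exact Nat.dvd_factorial Nat.card_pos hle
  -- each family
  let k : I → ℕ := fun i => (W i).relIndex (N i)
  let a : I → ℕ := fun i => (center G).relIndex (N i)
  have hk0 : ∀ i, 0 < k i := fun i => Nat.pos_of_ne_zero (relIndex_ne_zero' _ _)
  have ha0 : ∀ i, 0 < a i := fun i => Nat.pos_of_ne_zero (relIndex_ne_zero' _ _)
  have hkd : ∀ i, k i ≤ d := hWi
  have hNa : ∀ i, Nat.card (N i) = z * a i := fun i =>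
    card_eq_mul_relIndex (κ.center_le_stab (hT i))
  have hNk : ∀ i, Nat.card (N i) = Nat.card (W i) * k i := fun i => card_eq_mul_relIndex (hWN i)
  have hR : ∀ i, ∃ t : ℕ, 1 ≤ t ∧ Nat.card (Rs i) + z = t * Nat.card (W i) := by
    intro i
    let R' : Set G := Rs i ∪ (center G : Set G)
    have hinv : ∀ x ∈ R', ∀ w ∈ W i, x * w ∈ R' := by
      intro x hx w hw
      by_cases hz' : x * w ∈ center G
      · exact Or.inr hz'
      refine Or.inl ⟨?_, hz', ?_⟩
      · rcases hx with hx | hx
        · exact mul_mem hx.1 (hWN i hw)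
        · exact mul_mem (κ.center_le_stab (hT i) hx) (hWN i hw)
      · rcases hx with hx | hx
        · refine hx.2.2.trans_le (Subgroup.card_le_of_le (le_inf inf_le_left ?_))
          intro y hy
          have h1 := mem_centralizer_singleton_iff.1 (mem_inf.1 hy).2
          have h2 := (hWab i).1 y (mem_inf.1 hy).1 w hw
          refine mem_centralizer_singleton_iff.2 ?_
          rw [← mul_assoc, h1, mul_assoc, h2, ← mul_assoc]
        · refine (hWbig i).trans_le (Subgroup.card_le_of_le (le_inf le_rfl ?_))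
          intro y hy
          refine mem_centralizer_singleton_iff.2 ?_
          rw [← mul_assoc, mem_center_iff.1 hx y, mul_assoc, (hWab i).1 y hy w hw, ← mul_assoc]
    refine ⟨Nat.card (((↑) : G → G ⧸ W i) '' R'), ?_, ?_⟩
    · have : Nonempty ↥(((↑) : G → G ⧸ W i) '' R') :=
        ⟨⟨_, Set.mem_image_of_mem _ (Or.inr (one_mem (center G)))⟩⟩
      exact Nat.card_pos
    · rw [Nat.mul_comm, ← card_of_mul_invariant (W i) R' hinv]
      simp only [Nat.card_coe_set_eq, R', hz]
      rw [Set.ncard_union_eq (Set.disjoint_left.2 fun x hx hx' => hx.2.1 hx')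
        (Set.toFinite _) (Set.toFinite _)]
      rfl
  choose t ht1 htR using hR
  have hXcard : ∀ i, Nat.card (X i) * Nat.card (N i) = Nat.card G * Nat.card (Rs i) := by
    intro i
    have hRinv : ∀ g ∈ N i, ∀ r ∈ Rs i, g * r * g⁻¹ ∈ Rs i := by
      rintro g hg r ⟨h1, h2, h3⟩
      refine ⟨mul_mem (mul_mem hg h1) (inv_mem hg), fun h => h2 ?_, ?_⟩
      · have := (hcz g (g * r * g⁻¹)).2 h
        simpa [mul_assoc] using this
      · refine h3.trans_le ?_
        rw [← card_cj g (W i ⊓ centralizer ({r} : Set G))]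
        refine Subgroup.card_le_of_le fun y hy => ?_
        obtain ⟨hy1, hy2⟩ := mem_inf.1 (mem_cj.1 hy)
        refine mem_inf.2 ⟨?_, mem_centralizer_singleton_iff.2 ?_⟩
        · have := hWinv i g hg _ hy1
          simpa [mul_assoc] using this
        · have := mem_centralizer_singleton_iff.1 hy2
          calc y * (g * r * g⁻¹) = g * (g⁻¹ * y * g * r) * g⁻¹ := by group
            _ = g * (r * (g⁻¹ * y * g)) * g⁻¹ := by rw [this]
            _ = g * r * g⁻¹ * y := by group
    choose g0 hg0 using fun x : ↥(X i) => x.2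
    let F : ↥(X i) × ↥(N i) → G × ↥(Rs i) := fun xh =>
      (g0 xh.1 * xh.2, ⟨(g0 xh.1 * xh.2)⁻¹ * xh.1.1 * (g0 xh.1 * xh.2), by
        have := hRinv (xh.2 : G)⁻¹ (inv_mem xh.2.2) _ (hg0 xh.1)
        simpa [mul_assoc] using this⟩)
    have hF : Function.Bijective F := by
      constructor
      · rintro ⟨x, h⟩ ⟨x', h'⟩ heq
        simp only [F, Prod.mk.injEq, Subtype.ext_iff] at heq
        obtain ⟨e1, e2⟩ := heq
        rw [e1] at e2
        obtain rfl : x = x' := Subtype.ext (mul_left_cancel (mul_right_cancel e2))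
        obtain rfl : h = h' := Subtype.ext (mul_left_cancel e1)
        rfl
      · rintro ⟨g, r⟩
        have hx : g * r.1 * g⁻¹ ∈ X i := ⟨g, by simp [mul_assoc, r.2]⟩
        have hr : g⁻¹ * (g * r.1 * g⁻¹) * g ∈ Rs i := by simp [mul_assoc, r.2]
        have hmem : (g0 ⟨_, hx⟩)⁻¹ * g ∈ N i :=
          (κ.mem_stab (hT i)).2 (huniq hr (hg0 ⟨_, hx⟩)).symm
        refine ⟨(⟨_, hx⟩, ⟨_, hmem⟩), ?_⟩
        refine Prod.ext (by simp [F]) (Subtype.ext ?_)
        simp [F, mul_assoc]
    rw [← Nat.card_prod, Nat.card_congr (Equiv.ofBijective F hF), Nat.card_prod]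
  -- the class equation
  have htotal : Nat.card G = z + Nat.card S + ∑ i, Nat.card (X i) := by
    have : Fintype G := Fintype.ofFinite G
    have hone : ∀ x : G, (if x ∈ center G then 1 else 0) + (if x ∈ S then 1 else 0)
        + ∑ i, (if x ∈ X i then (1 : ℕ) else 0) = 1 := by
      intro x
      by_cases hx : x ∈ center G
      · rw [if_pos hx, if_neg (fun h : x ∈ S => h.1 hx),
          Finset.sum_eq_zero fun i _ => if_neg fun h => hXZ i x h hx, add_zero, add_zero]
      rw [if_neg hx]
      by_cases hS : x ∈ S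
      · rw [if_pos hS, Finset.sum_eq_zero fun i _ => if_neg (hS.2 i), zero_add, add_zero]
      · obtain ⟨i, hi⟩ : ∃ i, x ∈ X i := by
          by_contra hcon
          push Not at hcon
          exact hS ⟨hx, hcon⟩
        rw [if_neg hS, Finset.sum_eq_single i (fun j _ hj => if_neg fun h => hj (hXdisj h hi))
          (fun h => absurd (Finset.mem_univ i) h), if_pos hi]
    have hsum := Finset.sum_congr rfl (s₁ := (Finset.univ : Finset G)) fun x _ => hone x
    rw [Finset.sum_add_distrib, Finset.sum_add_distrib, Finset.sum_comm, Finset.sum_const,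
      Finset.card_univ, smul_eq_mul, mul_one, ← Nat.card_eq_fintype_card,
      ← card_eq_sum_ite S] at hsum
    rw [Finset.sum_congr rfl (fun i _ => (card_eq_sum_ite (X i)).symm)] at hsum
    have hcen : (∑ x : G, if x ∈ center G then 1 else 0) = z := by
      rw [hz]
      exact ((card_eq_sum_ite {x | x ∈ center G}).trans (by simp)).symm
    rw [hcen] at hsum
    exact hsum.symm
  have hgQ : (0 : ℚ) < gI := by exact_mod_cast hgIpos
  have hzQ : (0 : ℚ) < z := by exact_mod_cast hzpos
  have hG0 : (Nat.card G : ℚ) = z * gI := by exact_mod_cast hcardG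
  have hXfrac : ∀ i, (Nat.card (X i) : ℚ) / Nat.card G = t i / k i - 1 / a i := by
    intro i
    have e1 : (Nat.card (X i) : ℚ) * Nat.card (N i) = Nat.card G * Nat.card (Rs i) := by
      exact_mod_cast hXcard i
    have e2 : (Nat.card (Rs i) : ℚ) + z = t i * Nat.card (W i) := by exact_mod_cast htR i
    have e3 : (Nat.card (N i) : ℚ) = z * a i := by exact_mod_cast hNa i
    have e4 : (Nat.card (N i) : ℚ) = Nat.card (W i) * k i := by exact_mod_cast hNk i
    have p1 : (0 : ℚ) < Nat.card G := by exact_mod_cast Nat.card_pos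
    have p2 : (0 : ℚ) < Nat.card (N i) := by exact_mod_cast Nat.card_pos
    have p3 : (0 : ℚ) < k i := by exact_mod_cast hk0 i
    have p4 : (0 : ℚ) < Nat.card (W i) := by exact_mod_cast Nat.card_pos
    have q1 : (Nat.card (X i) : ℚ) / Nat.card G = Nat.card (Rs i) / Nat.card (N i) := by
      rw [div_eq_div_iff p1.ne' p2.ne', e1]; ring
    have q2 : (Nat.card (Rs i) : ℚ) = t i * Nat.card (W i) - z := by linarith
    rw [q1, q2, sub_div]
    congr 1
    · rw [e4]
      field_simp
    · rw [e3]
      field_simp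
  have hEq : (z : ℚ) / Nat.card G + (Nat.card S : ℚ) / Nat.card G
      + ∑ i, ((t i : ℚ) / k i - 1 / a i) = 1 := by
    simp only [← hXfrac]
    rw [← Finset.sum_div, ← add_div, ← add_div, div_eq_one_iff_eq
      (by exact_mod_cast Nat.card_pos.ne')]
    exact_mod_cast htotal.symm
  have hterm : ∀ i, (1 : ℚ) / (2 * d) ≤ (t i : ℚ) / k i - 1 / a i := by
    intro i
    have p3 : (0 : ℚ) < k i := by exact_mod_cast hk0 i
    have h2z : 2 * z ≤ Nat.card (W i) := by
      obtain ⟨m, hm⟩ : z ∣ Nat.card (W i) := Subgroup.card_dvd_of_le (hZW i)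
      have h1 : z * 1 < z * m := by
        rw [← hm, Nat.mul_comm]
        exact lt_of_le_of_lt (Nat.mul_le_mul (one_le_MM hc) le_rfl) (hWbig i)
      rw [hm, Nat.mul_comm 2]
      exact Nat.mul_le_mul le_rfl (Nat.lt_of_mul_lt_mul_left h1)
    have h2a : 2 * k i ≤ a i := by
      refine Nat.le_of_mul_le_mul_left ?_ hzpos
      rw [← hNa, hNk]
      calc z * (2 * k i) = 2 * z * k i := by ring
        _ ≤ Nat.card (W i) * k i := Nat.mul_le_mul h2z le_rfl
    have h1 : (1 : ℚ) / a i ≤ 1 / (2 * k i) := by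
      refine one_div_le_one_div_of_le (by positivity) ?_
      exact_mod_cast h2a
    have h3 : (1 : ℚ) / k i ≤ t i / k i := by
      gcongr
      exact_mod_cast ht1 i
    have h4 : (1 : ℚ) / (2 * d) ≤ 1 / (2 * k i) := by
      refine one_div_le_one_div_of_le (by positivity) ?_
      have : (k i : ℚ) ≤ d := by exact_mod_cast hkd i
      linarith
    have h5 : (1 : ℚ) / k i - 1 / (2 * k i) = 1 / (2 * k i) := by field_simp; norm_num
    linarith
  have hcardI : Fintype.card I ≤ 2 * d := by
    have h1 : (Fintype.card I : ℚ) * (1 / (2 * d)) ≤ ∑ i, ((t i : ℚ) / k i - 1 / a i) := by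
      have := Finset.card_nsmul_le_sum (Finset.univ : Finset I) _ _ fun i _ => hterm i
      rwa [nsmul_eq_mul, Finset.card_univ] at this
    have h2 : (0 : ℚ) ≤ z / Nat.card G + (Nat.card S : ℚ) / Nat.card G := by positivity
    have h3 : (Fintype.card I : ℚ) * (1 / (2 * d)) ≤ 1 := by linarith
    rw [mul_one_div, div_le_one (by positivity)] at h3
    exact_mod_cast h3
  obtain ⟨u, hu⟩ := hSdvd
  let L1 := L * d.factorial
  let q : ℤ := (u * d.factorial : ℕ) + ∑ i, ((t i * (d.factorial / k i) * L : ℕ) : ℤ) - (L1 : ℕ)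
  have hS' : (Nat.card S : ℚ) / Nat.card G = (u : ℚ) / L := by
    have e : (L : ℚ) * Nat.card Sb = gI * u := by exact_mod_cast hu
    have hL0 : (0 : ℚ) < L := by exact_mod_cast Nat.factorial_pos _
    rw [hScard, hG0, Nat.cast_mul, div_eq_div_iff (by positivity) hL0.ne']
    linear_combination (z : ℚ) * e
  have hq : ((Finset.univ.val.map a).map fun x : ℕ => (1 : ℚ) / x).sum - 1 / gI
      = q / L1 := by
    have hL0 : (0 : ℚ) < L := by exact_mod_cast Nat.factorial_pos _
    have hD0 : (0 : ℚ) < (d.factorial : ℚ) := by exact_mod_cast Nat.factorial_pos _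
    have hdiv : ∀ i, ((t i * (d.factorial / k i) * L : ℕ) : ℚ)
        = (t i : ℚ) / k i * (L * d.factorial) := by
      intro i
      have p3 : (k i : ℚ) ≠ 0 := by exact_mod_cast (hk0 i).ne'
      rw [Nat.cast_mul, Nat.cast_mul, Nat.cast_div (Nat.dvd_factorial (hk0 i) (hkd i)) p3]
      field_simp
    have hsum : ((Finset.univ.val.map a).map fun x : ℕ => (1 : ℚ) / x).sum
        = ∑ i, (1 : ℚ) / a i := by
      rw [Multiset.map_map]
      rfl
    have hz' : (z : ℚ) / Nat.card G = 1 / gI := by
      rw [hG0]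
      field_simp
    rw [Finset.sum_sub_distrib, hS', hz'] at hEq
    have hcast : (q : ℚ) = (u : ℚ) * d.factorial
        + (∑ i, (t i : ℚ) / k i) * (L * d.factorial) - (L * d.factorial : ℚ) := by
      simp only [q, L1, Int.cast_sub, Int.cast_add, Int.cast_sum, Int.cast_natCast, hdiv,
        Finset.sum_mul]
      simp only [Nat.cast_mul]
    rw [hsum, hcast, eq_div_iff (by positivity)]
    simp only [L1, Nat.cast_mul]
    have hu' : (u : ℚ) / L * L = u := by field_simp
    linear_combination (-(L * d.factorial : ℚ)) * hEq + (d.factorial : ℚ) * hu'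
  have hale : ∀ i, a i ≤ gI := fun i => by
    show (center G).relIndex (N i) ≤ (center G).index
    rw [← Subgroup.relIndex_top_right]
    exact relIndex_le_right' le_top
  rcases hB _ gI L1 q (by simpa using hcardI) hgIpos
      (by
        intro x hx
        obtain ⟨i, -, rfl⟩ := Multiset.mem_map.1 hx
        exact ⟨ha0 i, hale i⟩)
      (Nat.mul_pos (Nat.factorial_pos _) (Nat.factorial_pos _)) le_rfl hq with h | h
  · obtain ⟨i, -, hi⟩ := Multiset.mem_map.1 h
    have hN : N i = ⊤ := by
      refine Subgroup.eq_top_of_card_eq _ ?_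
      rw [hNa, hcardG, hi]
    refine ⟨W i, hWab i, le_max_of_le_right ?_⟩
    have := hkd i
    simp only [k, hN, Subgroup.relIndex_top_right] at this
    exact this
  · exact ⟨center G, κ.hZ, le_max_of_le_left h⟩

end Ctx

/-- The group-theoretic core: a bound depending only on the parameters. -/
theorem exists_bound (c b n R : ℕ) : ∃ F : ℕ, ∀ {p : ℕ} {G : Type*} [Group G] [Finite G],
    Ctx p c b n R G → ∃ A : Subgroup G, AbP p A ∧ A.index ≤ F := by
  obtain ⟨B, hB⟩ := egypt_bound (2 * dd b c)
    ((n * (c * Kr b c R)).factorial * (dd b c).factorial)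
  exact ⟨max B (dd b c), fun κ => κ.count B hB⟩

end Cfsg.Agent.H68.JordanP
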