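import Cfsg.Agent.H68.JordanP.AbP

set_option autoImplicit false
set_option linter.unusedSectionVars false

/-!
# Families of large commutative `p'`-subgroups

We study finite groups in which the centraliser of every non-central element has a commutative
`p'`-subgroup of bounded index, and in which commutative `p'`-subgroups have bounded
automiser.
-/

namespace Cfsg.Agent.H68.JordanP

open Subgroup
open scoped commutatorElement

/-- The hypotheses of the counting argument. -/
structure Ctx (p c b n R : ℕ) (G : Type*) [Group G] [Finite G] where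
  hp : p.Prime
  hc : 1 ≤ c
  hZ : AbP p (center G)
  hC : ∀ x : G, x ∉ center G → ∃ A : Subgroup G,
    AbP p A ∧ A ≤ centralizer ({x} : Set G) ∧ A.relIndex (centralizer ({x} : Set G)) ≤ c
  hN : ∀ E : Subgroup G, AbP p E →
    (centralizer (E : Set G)).relIndex (normalizer (E : Set G)) ≤ b
  rk : Subgroup G → ℕ
  rk_le : ∀ D, rk D ≤ R
  cent_le : ∀ D D' : Subgroup G, D ≤ D' → rk D' ≤ rk D →
    centralizer (D : Set G) ≤ centralizer (D' : Set G)
  hcomm : ∀ x : G,
    Nat.card {g : G // ⁅g, x⁆ ∈ center G} ≤ n * Nat.card (centralizer ({x} : Set G))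

variable {p c b n R : ℕ} {G : Type*} [Group G] [Finite G]

/-- The image of a subgroup under conjugation by `g`. -/
def cj (g : G) (A : Subgroup G) : Subgroup G := A.map (MulAut.conj g).toMonoidHom

omit [Finite G] in
theorem mem_cj {g x : G} {A : Subgroup G} : x ∈ cj g A ↔ g⁻¹ * x * g ∈ A := by
  constructor
  · rintro ⟨y, hy, rfl⟩
    simpa [MulAut.conj_apply, mul_assoc] using hy
  · intro h
    exact ⟨_, h, by simp [MulAut.conj_apply, mul_assoc]⟩

omit [Finite G] in
theorem cj_mul (g h : G) (A : Subgroup G) : cj (g * h) A = cj g (cj h A) := by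
  ext x
  simp only [mem_cj, mul_inv_rev, mul_assoc]

omit [Finite G] in
theorem cj_one (A : Subgroup G) : cj 1 A = A := by
  ext x
  simp [mem_cj]

theorem card_cj (g : G) (A : Subgroup G) : Nat.card (cj g A) = Nat.card A :=
  Subgroup.card_map_of_injective (MulAut.conj g).injective

theorem relIndex_cj (g : G) (A B : Subgroup G) : (cj g A).relIndex (cj g B) = A.relIndex B :=
  Subgroup.relIndex_map_map_of_injective A B (MulAut.conj g).injective

omit [Finite G] in
theorem AbP.cj {p : ℕ} {A : Subgroup G} (hA : AbP p A) (g : G) : AbP p (cj g A) :=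
  hA.map _ (MulAut.conj g).injective

/-- Two subgroups meet outside the centre. -/
def Meet (A B : Subgroup G) : Prop := ∃ w ∈ A, w ∈ B ∧ w ∉ center G

omit [Finite G] in
theorem Meet.symm {A B : Subgroup G} (h : Meet A B) : Meet B A := by
  obtain ⟨w, h1, h2, h3⟩ := h
  exact ⟨w, h2, h1, h3⟩

omit [Finite G] in
theorem Meet.cj {A B : Subgroup G} (h : Meet A B) (g : G) : Meet (cj g A) (cj g B) := by
  obtain ⟨w, h1, h2, h3⟩ := h
  refine ⟨g * w * g⁻¹, mem_cj.2 (by simpa [mul_assoc] using h1),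
    mem_cj.2 (by simpa [mul_assoc] using h2), fun hh => h3 ?_⟩
  have := (inferInstance : (center G).Normal).conj_mem _ hh g⁻¹
  simpa [mul_assoc] using this

/-- A large subgroup meets outside the centre every subgroup of small index in it. -/
theorem exists_mem_of_relIndex {A B : Subgroup G} {k : ℕ} (hB : B.relIndex A ≤ k)
    (hA : k * Nat.card (center G) < Nat.card A) : Meet A B := by
  by_contra hcon
  have hle : B ⊓ A ≤ center G := fun w hw => by
    by_contra hw'
    exact hcon ⟨w, (mem_inf.1 hw).2, (mem_inf.1 hw).1, hw'⟩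
  have := card_inf_mul_relIndex A B
  have h1 : Nat.card (B ⊓ A : Subgroup G) * B.relIndex A ≤ Nat.card (center G) * k :=
    Nat.mul_le_mul (Subgroup.card_le_of_le hle) hB
  rw [this, Nat.mul_comm] at h1
  omega

/-- A subgroup of largest order containing most of `A`. -/
def IsTop (p c : ℕ) (A T : Subgroup G) : Prop :=
  AbP p T ∧ T.relIndex A ≤ c ∧
    ∀ T' : Subgroup G, AbP p T' → T'.relIndex A ≤ c → Nat.card T' ≤ Nat.card T

theorem IsTop.cj {A T : Subgroup G} (h : IsTop p c A T) (g : G) :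
    IsTop p c (cj g A) (cj g T) := by
  refine ⟨h.1.cj g, by rw [relIndex_cj]; exact h.2.1, fun T' hT' hi => ?_⟩
  have h1 := h.2.2 (JordanP.cj g⁻¹ T') (hT'.cj _) (by
    rw [← relIndex_cj g, ← cj_mul, mul_inv_cancel, cj_one]
    exact hi)
  rwa [card_cj] at h1 ⊢

theorem exists_isTop (hc : 1 ≤ c) {A : Subgroup G} (hA : AbP p A) :
    ∃ T, IsTop p c A T ∧ Nat.card A ≤ Nat.card T := by
  have hA' : A.relIndex A ≤ c := by rwa [Subgroup.relIndex_self]
  obtain ⟨T, ⟨hT1, hT2⟩, hmax⟩ :=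
    Set.exists_max_image {T : Subgroup G | AbP p T ∧ T.relIndex A ≤ c}
      (fun T => Nat.card T) (Set.toFinite _) ⟨A, hA, hA'⟩
  exact ⟨T, ⟨hT1, hT2, fun T' h1 h2 => hmax T' ⟨h1, h2⟩⟩, hmax A ⟨hA, hA'⟩⟩

/-- `M c` is the threshold used for uniqueness of families. -/
def MM (c : ℕ) : ℕ := c ^ 8

/-- The bound on the index of the commutative normal subgroup of a family stabiliser. -/
def dd (b c : ℕ) : ℕ := (b * c).factorial

/-- The threshold defining roots. -/
def Kr (b c R : ℕ) : ℕ := (dd b c + 1) * (c ^ (3 * R) * MM c)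

theorem one_le_MM (hc : 1 ≤ c) : 1 ≤ MM c := Nat.one_le_pow _ _ hc

theorem pow_le_MM (hc : 1 ≤ c) {i : ℕ} (hi : i ≤ 8) : c ^ i ≤ MM c :=
  Nat.pow_le_pow_right hc hi

theorem MM_le_Kr (hc : 1 ≤ c) : MM c ≤ Kr b c R := by
  calc MM c = 1 * (1 * MM c) := by simp
    _ ≤ Kr b c R := Nat.mul_le_mul (Nat.le_add_left 1 _)
        (Nat.mul_le_mul (Nat.one_le_pow _ _ hc) le_rfl)

theorem dd_mul_MM_le_Kr (hc : 1 ≤ c) : dd b c * MM c ≤ Kr b c R := by
  calc dd b c * MM c = dd b c * (1 * MM c) := by simp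
    _ ≤ Kr b c R := Nat.mul_le_mul (Nat.le_add_right _ _)
        (Nat.mul_le_mul (Nat.one_le_pow _ _ hc) le_rfl)

theorem pow_le_Kr (hc : 1 ≤ c) : (c ^ 3) ^ R ≤ Kr b c R := by
  rw [← pow_mul]
  calc c ^ (3 * R) = 1 * (c ^ (3 * R) * 1) := by simp
    _ ≤ Kr b c R := Nat.mul_le_mul (Nat.le_add_left 1 _) (Nat.mul_le_mul le_rfl (one_le_MM hc))

theorem dd_le_Kr (hc : 1 ≤ c) : dd b c ≤ Kr b c R := by
  calc dd b c = dd b c * 1 := by simp
    _ ≤ dd b c * MM c := Nat.mul_le_mul le_rfl (one_le_MM hc)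
    _ ≤ Kr b c R := dd_mul_MM_le_Kr hc

/-- A root of a family. -/
def IsRoot (p c b R : ℕ) (T : Subgroup G) : Prop :=
  ∃ A : Subgroup G, AbP p A ∧ Kr b c R * Nat.card (center G) < Nat.card A ∧
    Nat.card A ≤ Nat.card T ∧ IsTop p c A T

theorem IsRoot.cj {T : Subgroup G} (h : IsRoot p c b R T) (g : G) :
    IsRoot p c b R (cj g T) := by
  obtain ⟨A, h1, h2, h3, h4⟩ := h
  exact ⟨JordanP.cj g A, h1.cj g, by rwa [card_cj], by rwa [card_cj, card_cj], h4.cj g⟩

omit [Finite G] in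
theorem IsRoot.abP [Finite G] {T : Subgroup G} (h : IsRoot p c b R T) : AbP p T := by
  obtain ⟨A, _, _, _, h4⟩ := h
  exact h4.1

theorem IsRoot.big {T : Subgroup G} (h : IsRoot p c b R T) {k : ℕ} (hk : k ≤ Kr b c R) :
    k * Nat.card (center G) < Nat.card T := by
  obtain ⟨A, _, h2, h3, _⟩ := h
  exact lt_of_le_of_lt (Nat.mul_le_mul hk le_rfl) (h2.trans_le h3)

namespace Ctx

variable (κ : Ctx p c b n R G)
include κ

/-- Every commutative `p'`-subgroup meeting a root is almost contained in it. -/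
theorem relIndex_root {T B : Subgroup G} (hT : IsRoot p c b R T) (hB : AbP p B) (h : Meet T B) :
    T.relIndex B ≤ c ^ 3 := by
  have hc := κ.hc
  obtain ⟨A, hA, hAbig, -, hTabP, hTA, hmax⟩ := hT
  obtain ⟨z, hzT, hzB, hzZ⟩ := h
  obtain ⟨Az, hAz, hAzC, hAzi⟩ := κ.hC z hzZ
  have hAzT : Az.relIndex T ≤ c :=
    (relIndex_le_right' (hTabP.le_centralizer_singleton hzT)).trans hAzi
  have hAzB : Az.relIndex B ≤ c :=
    (relIndex_le_right' (hB.le_centralizer_singleton hzB)).trans hAzi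
  have hAzA : Az.relIndex A ≤ c * c :=
    (relIndex_trans_le A T Az).trans (Nat.mul_le_mul hTA hAzT)
  have h2 : c * c ≤ Kr b c R := by
    calc c * c = c ^ 2 := (sq c).symm
      _ ≤ MM c := pow_le_MM hc (by omega)
      _ ≤ Kr b c R := MM_le_Kr hc
  obtain ⟨w, hwA, hwAz, hwZ⟩ :=
    exists_mem_of_relIndex hAzA (lt_of_le_of_lt (Nat.mul_le_mul h2 le_rfl) hAbig)
  obtain ⟨Aw, hAw, hAwC, hAwi⟩ := κ.hC w hwZ
  have hAwA : Aw.relIndex A ≤ c :=
    (relIndex_le_right' (hA.le_centralizer_singleton hwA)).trans hAwi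
  have hAwAz : Aw.relIndex Az ≤ c :=
    (relIndex_le_right' (hAz.le_centralizer_singleton hwAz)).trans hAwi
  have hsize : Nat.card Az ≤ c * Nat.card T :=
    (card_le_of_relIndex hAwAz).trans (Nat.mul_le_mul le_rfl (hmax Aw hAw hAwA))
  have hTAz : T.relIndex Az ≤ c * c := by
    have e1 := card_inf_mul_relIndex Az T
    have e2 := card_inf_mul_relIndex T Az
    rw [inf_comm] at e2
    have hpos : 0 < Nat.card (T ⊓ Az : Subgroup G) := Nat.card_pos
    refine Nat.le_of_mul_le_mul_left ?_ hpos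
    calc Nat.card (T ⊓ Az : Subgroup G) * T.relIndex Az = Nat.card Az := e1
      _ ≤ c * Nat.card T := hsize
      _ = Nat.card (T ⊓ Az : Subgroup G) * (c * Az.relIndex T) := by rw [← e2]; ring
      _ ≤ Nat.card (T ⊓ Az : Subgroup G) * (c * c) := by gcongr
  calc T.relIndex B ≤ Az.relIndex B * T.relIndex Az := relIndex_trans_le B Az T
    _ ≤ c * (c * c) := Nat.mul_le_mul hAzB hTAz
    _ = c ^ 3 := by ring

theorem meet_self {T : Subgroup G} (hT : IsRoot p c b R T) : Meet T T := by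
  refine exists_mem_of_relIndex (k := 1) (by rw [Subgroup.relIndex_self]) (hT.big ?_)
  exact (one_le_MM κ.hc).trans (MM_le_Kr κ.hc)

theorem meet_trans {T U V : Subgroup G} (hT : IsRoot p c b R T) (hU : IsRoot p c b R U)
    (hV : IsRoot p c b R V) (h1 : Meet T U) (h2 : Meet U V) : Meet T V := by
  have hc := κ.hc
  have e1 := κ.relIndex_root hT hU.abP h1
  have e2 := κ.relIndex_root hV hU.abP h2.symm
  have h : (T ⊓ V).relIndex U ≤ c ^ 6 :=
    (Subgroup.relIndex_inf_le).trans ((Nat.mul_le_mul e1 e2).trans (le_of_eq (by ring)))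
  obtain ⟨w, -, hw, hwZ⟩ :=
    exists_mem_of_relIndex h (hU.big ((pow_le_MM hc (by omega)).trans (MM_le_Kr hc)))
  exact ⟨w, (mem_inf.1 hw).1, (mem_inf.1 hw).2, hwZ⟩

/-- Large commutative subgroups of one centraliser lead to the same family. -/
theorem meet_of_large {T U : Subgroup G} (hT : IsRoot p c b R T) (hU : IsRoot p c b R U)
    {x : G} (hx : x ∉ center G) {A A' : Subgroup G} (hA : A ≤ centralizer ({x} : Set G))
    (hA' : A' ≤ centralizer ({x} : Set G))
    (hTA : T.relIndex A ≤ c ^ 3) (hUA : U.relIndex A' ≤ c ^ 3)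
    (hAbig : MM c * Nat.card (center G) < Nat.card A)
    (hAbig' : MM c * Nat.card (center G) < Nat.card A') : Meet T U := by
  have hc := κ.hc
  obtain ⟨Ax, hAx, hAxC, hAxi⟩ := κ.hC x hx
  have key : ∀ {T A : Subgroup G}, IsRoot p c b R T → A ≤ centralizer ({x} : Set G) →
      T.relIndex A ≤ c ^ 3 → MM c * Nat.card (center G) < Nat.card A →
      T.relIndex Ax ≤ c ^ 3 := by
    intro T A hT hA hTA hAbig
    have h : (T ⊓ Ax).relIndex A ≤ c ^ 4 :=
      (Subgroup.relIndex_inf_le).trans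
        ((Nat.mul_le_mul hTA ((relIndex_le_right' hA).trans hAxi)).trans (le_of_eq (by ring)))
    obtain ⟨w, -, hw, hwZ⟩ := exists_mem_of_relIndex h
      (lt_of_le_of_lt (Nat.mul_le_mul (pow_le_MM hc (by omega)) le_rfl) hAbig)
    exact κ.relIndex_root hT hAx ⟨w, (mem_inf.1 hw).1, (mem_inf.1 hw).2, hwZ⟩
  have e1 := key hT hA hTA hAbig
  have e2 := key hU hA' hUA hAbig'
  have h : (T ⊓ U).relIndex Ax ≤ c ^ 6 :=
    (Subgroup.relIndex_inf_le).trans ((Nat.mul_le_mul e1 e2).trans (le_of_eq (by ring)))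
  have hsize : c ^ 6 * Nat.card (center G) < Nat.card Ax := by
    have h1 : Nat.card A ≤ c * Nat.card Ax :=
      card_le_of_relIndex ((relIndex_le_right' hA).trans hAxi)
    have h7 : c * (c ^ 6 * Nat.card (center G)) ≤ MM c * Nat.card (center G) := by
      rw [← mul_assoc]
      refine Nat.mul_le_mul ?_ le_rfl
      calc c * c ^ 6 = c ^ 7 := by ring
        _ ≤ MM c := pow_le_MM hc (by omega)
    by_contra hcon
    push Not at hcon
    have := Nat.mul_le_mul (le_refl c) hcon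
    omega
  obtain ⟨w, -, hw, hwZ⟩ := exists_mem_of_relIndex h hsize
  exact ⟨w, (mem_inf.1 hw).1, (mem_inf.1 hw).2, hwZ⟩

/-- The stabiliser of the family of a root. -/
def stab {T : Subgroup G} (hT : IsRoot p c b R T) : Subgroup G where
  carrier := {g | Meet T (cj g T)}
  one_mem' := by
    show Meet T (cj 1 T)
    rw [cj_one]
    exact κ.meet_self hT
  mul_mem' := fun {g h} hg hh => by
    show Meet T (cj (g * h) T)
    rw [cj_mul]
    exact κ.meet_trans hT (hT.cj g) ((hT.cj h).cj g) hg (Meet.cj hh g)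
  inv_mem' := fun {g} hg => by
    show Meet T (cj g⁻¹ T)
    have := (Meet.cj hg g⁻¹).symm
    rwa [← cj_mul, inv_mul_cancel, cj_one] at this

theorem mem_stab {T : Subgroup G} (hT : IsRoot p c b R T) {g : G} :
    g ∈ κ.stab hT ↔ Meet T (cj g T) := Iff.rfl

/-- An element commuting with a non-central element of the root stabilises the family. -/
theorem mem_stab_of_commute {T : Subgroup G} (hT : IsRoot p c b R T) {g w : G} (hw : w ∈ T)
    (hwZ : w ∉ center G) (hgw : g * w = w * g) : g ∈ κ.stab hT := by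
  refine (κ.mem_stab hT).2 ⟨w, hw, mem_cj.2 ?_, hwZ⟩
  rw [mul_assoc, ← hgw, inv_mul_cancel_left]
  exact hw

theorem root_le_stab {T : Subgroup G} (hT : IsRoot p c b R T) : T ≤ κ.stab hT := by
  obtain ⟨w, hw, -, hwZ⟩ := κ.meet_self hT
  exact fun g hg => κ.mem_stab_of_commute hT hw hwZ (hT.abP.1 g hg w hw)

theorem center_le_stab {T : Subgroup G} (hT : IsRoot p c b R T) : center G ≤ κ.stab hT := by
  obtain ⟨w, hw, -, hwZ⟩ := κ.meet_self hT
  exact fun g hg => κ.mem_stab_of_commute hT hw hwZ (mem_center_iff.1 hg w).symm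

/-- The stabiliser of a family normalises a commutative `p'`-subgroup outside the centre. -/
theorem exists_normalised {T : Subgroup G} (hT : IsRoot p c b R T) :
    ∃ E : Subgroup G, AbP p E ∧ κ.stab hT ≤ normalizer (E : Set G) ∧
      ∃ w ∈ E, w ∉ center G := by
  have hc := κ.hc
  classical
  -- a subgroup `D` of `T` of minimal rank among those of small index
  let P : ℕ → Prop := fun r => ∃ D : Subgroup G, D ≤ T ∧ κ.rk D = r ∧
    ∃ j : ℕ, D.relIndex T ≤ (c ^ 3) ^ j ∧ r + j ≤ R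
  have hP : ∃ r, P r := ⟨κ.rk T, T, le_rfl, rfl, 0, by simp, by simpa using κ.rk_le T⟩
  obtain ⟨D, hDT, hDr, j, hDj, hjR⟩ := Nat.find_spec hP
  have hmin : ∀ g ∈ κ.stab hT,
      cj g T ≤ centralizer (D : Set G) := by
    intro g hg
    have hi : (D ⊓ cj g T).relIndex T ≤ (c ^ 3) ^ (j + 1) := by
      refine (Subgroup.relIndex_inf_le).trans ?_
      rw [pow_succ]
      exact Nat.mul_le_mul hDj (κ.relIndex_root (hT.cj g) hT.abP ((κ.mem_stab hT).1 hg).symm)
    have hrk : κ.rk D ≤ κ.rk (D ⊓ cj g T) := by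
      by_contra hlt
      push Not at hlt
      exact Nat.find_min hP (m := κ.rk (D ⊓ cj g T)) (by rw [← hDr]; exact hlt)
        ⟨_, inf_le_left.trans hDT, rfl, j + 1, hi, by omega⟩
    refine le_trans ?_ (κ.cent_le _ _ inf_le_left hrk)
    intro x hx
    exact mem_centralizer_iff.2 fun y hy => (hT.cj g).abP.1 y (mem_inf.1 hy).2 x hx
  set N := κ.stab hT with hNdef
  let K : Subgroup G := ⨆ g : N, cj (g : G) T
  have hTK : T ≤ K := by
    refine le_iSup_of_le (1 : N) ?_
    rw [OneMemClass.coe_one, cj_one]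
  have hKD : K ≤ centralizer (D : Set G) := iSup_le fun g => hmin g g.2
  have hcomm : ∀ x ∈ centralizer (K : Set G) ⊓ K, ∀ y ∈ centralizer (K : Set G) ⊓ K,
      x * y = y * x := fun x hx y hy => mem_centralizer_iff.1 (mem_inf.1 hy).1 x (mem_inf.1 hx).2
  obtain ⟨E, hE⟩ := exists_primePart κ.hp (centralizer (K : Set G) ⊓ K) hcomm
  have hKinv : ∀ h ∈ N, ∀ x ∈ K, h * x * h⁻¹ ∈ K := by
    intro h hh x hx
    have hle : K ≤ K.comap (MulAut.conj h).toMonoidHom := by
      refine iSup_le fun g => ?_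
      intro y hy
      rw [Subgroup.mem_comap]
      refine Subgroup.mem_iSup_of_mem (⟨h * g, mul_mem hh g.2⟩ : N) ?_
      rw [mem_cj] at hy ⊢
      simpa [MulAut.conj_apply, mul_assoc] using hy
    simpa using hle hx
  have hEinv : ∀ h ∈ N, ∀ x ∈ E, h * x * h⁻¹ ∈ E := by
    intro h hh x hx
    obtain ⟨hxC, hxp⟩ := (hE x).1 hx
    refine (hE _).2 ⟨mem_inf.2 ⟨mem_centralizer_iff.2 fun y hy => ?_,
      hKinv h hh x (mem_inf.1 hxC).2⟩, ?_⟩
    · have h1 : h⁻¹ * y * h ∈ K := by simpa using hKinv h⁻¹ (inv_mem hh) y hy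
      have h2 := mem_centralizer_iff.1 (mem_inf.1 hxC).1 _ h1
      calc y * (h * x * h⁻¹) = h * ((h⁻¹ * y * h) * x) * h⁻¹ := by group
        _ = h * (x * (h⁻¹ * y * h)) * h⁻¹ := by rw [h2]
        _ = h * x * h⁻¹ * y := by group
    · have : orderOf (h * x * h⁻¹) = orderOf x :=
        orderOf_injective (MulAut.conj h).toMonoidHom (MulAut.conj h).injective x
      rwa [this]
  refine ⟨E, ⟨fun x hx y hy => hcomm x ((hE x).1 hx).1 y ((hE y).1 hy).1,
    fun x hx => ((hE x).1 hx).2⟩, ?_, ?_⟩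
  · intro h hh
    refine mem_normalizer_iff.2 fun x => ⟨hEinv h hh x, fun hx => ?_⟩
    have := hEinv h⁻¹ (inv_mem hh) _ hx
    simpa [mul_assoc] using this
  · have hDE : D ≤ E := fun x hx => (hE x).2 ⟨mem_inf.2 ⟨mem_centralizer_iff.2 fun y hy =>
        (mem_centralizer_iff.1 (hKD hy) x hx).symm, hTK (hDT hx)⟩, hT.abP.2 x (hDT hx)⟩
    have hjle : (c ^ 3) ^ j ≤ Kr b c R :=
      (Nat.pow_le_pow_right (Nat.one_le_pow _ _ hc) (by omega)).trans (pow_le_Kr hc)
    obtain ⟨w, -, hw, hwZ⟩ := exists_mem_of_relIndex hDj (hT.big hjle)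
    exact ⟨w, hDE hw, hwZ⟩

/-- The stabiliser of a family has a commutative normal `p'`-subgroup of bounded index. -/
theorem exists_core {T : Subgroup G} (hT : IsRoot p c b R T) :
    ∃ W : Subgroup G, W ≤ κ.stab hT ∧ center G ≤ W ∧ AbP p W ∧
      (∀ g ∈ κ.stab hT, ∀ x ∈ W, g * x * g⁻¹ ∈ W) ∧
      W.relIndex (κ.stab hT) ≤ dd b c ∧ T.relIndex W ≤ c ^ 3 := by
  obtain ⟨E, hE, hNE, w, hwE, hwZ⟩ := κ.exists_normalised hT
  obtain ⟨Aw, hAw, -, hAwi⟩ := κ.hC w hwZ
  set N := κ.stab hT with hNdef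
  have h1 : Aw.relIndex N ≤ b * c := by
    refine (relIndex_trans_le N (centralizer (E : Set G)) Aw).trans (Nat.mul_le_mul ?_ ?_)
    · exact (relIndex_le_right' hNE).trans (κ.hN E hE)
    · exact (relIndex_le_right' (centralizer_le (Set.singleton_subset_iff.2 hwE))).trans hAwi
  let W0 : Subgroup N := (Aw.subgroupOf N).normalCore
  have hW0 : W0.index ≤ dd b c :=
    (Nat.le_of_dvd (Nat.factorial_pos _) (index_normalCore_dvd _)).trans
      (Nat.factorial_le h1)
  let W' : Subgroup G := W0.map N.subtype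
  have hW'N : W' ≤ N := map_subtype_le W0
  have hW'Aw : W' ≤ Aw := by
    rintro _ ⟨x, hx, rfl⟩
    exact mem_subgroupOf.1 (normalCore_le _ hx)
  have hW'inv : ∀ g ∈ N, ∀ x ∈ W', g * x * g⁻¹ ∈ W' := by
    rintro g hg _ ⟨x, hx, rfl⟩
    exact ⟨⟨g, hg⟩ * x * ⟨g, hg⟩⁻¹, (normalCore_normal _).conj_mem _ hx _, by simp⟩
  have hW'ab : AbP p W' := hAw.mono hW'Aw
  have hW'i : W'.relIndex N ≤ dd b c := by
    have : W'.subgroupOf N = W0 := comap_map_eq_self_of_injective N.subtype_injective W0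
    rw [Subgroup.relIndex, this]
    exact hW0
  have hWab : AbP p (W' ⊔ center G) :=
    hW'ab.sup κ.hp κ.hZ fun x _ y hy => mem_center_iff.1 hy x
  refine ⟨W' ⊔ center G, sup_le hW'N (κ.center_le_stab hT), le_sup_right, hWab, ?_,
    (relIndex_le_left' le_sup_left).trans hW'i, ?_⟩
  · intro g hg x hx
    have hle : W' ⊔ center G ≤ (W' ⊔ center G).comap (MulAut.conj g).toMonoidHom := by
      refine sup_le (fun y hy => ?_) (fun y hy => ?_)
      · exact Subgroup.mem_comap.2 (mem_sup_left (hW'inv g hg y hy))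
      · exact Subgroup.mem_comap.2
          (mem_sup_right ((inferInstance : (center G).Normal).conj_mem _ hy g))
    simpa using hle hx
  · refine κ.relIndex_root hT hWab ?_
    have hi : (W' ⊔ center G).relIndex T ≤ dd b c :=
      ((relIndex_le_right' (κ.root_le_stab hT)).trans (relIndex_le_left' le_sup_left)).trans hW'i
    exact exists_mem_of_relIndex hi (hT.big (dd_le_Kr κ.hc))

end Ctx

end Cfsg.Agent.H68.JordanP
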