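import Cfsg.Agent.H68.JordanP.Count

set_option autoImplicit false
set_option linter.unusedSectionVars false

/-!
# Linear groups with bounded Sylow `p`-subgroups in characteristic `p`

The analogue of Jordan's theorem due to Brauer and Feit, by induction on the dimension.
-/

namespace Cfsg.Agent.H68.JordanP

open Subgroup
open scoped commutatorElement

universe u v

variable {p : ℕ} [hp : Fact p.Prime]

section Reducible

variable {G : Type u} [Group G] [Finite G] {K : Type v} [Field K] [CharP K p]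
  {V : Type v} [AddCommGroup V] [Module K V]

/-- The action on an invariant subspace. -/
def restrictHom (ρ : G →* Module.End K V) (W : Submodule K V)
    (hW : ∀ g : G, ∀ x ∈ W, ρ g x ∈ W) : G →* Module.End K W where
  toFun g := (ρ g).restrict (hW g)
  map_one' := by ext x; simp
  map_mul' g h := by ext x; simp [map_mul]

/-- The action on the quotient by an invariant subspace. -/
def quotHom (ρ : G →* Module.End K V) (W : Submodule K V)
    (hW : ∀ g : G, ∀ x ∈ W, ρ g x ∈ W) : G →* Module.End K (V ⧸ W) where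
  toFun g := W.mapQ W (ρ g) (hW g)
  map_one' := by ext x; simp
  map_mul' g h := by ext x; simp [map_mul]

omit [Finite G] [CharP K p] in
theorem one_add_pow_of_sq_zero {ν : Module.End K V} (h : ν * ν = 0) (k : ℕ) :
    (1 + ν) ^ k = 1 + k • ν := by
  induction k with
  | zero => simp
  | succ k ih =>
    rw [pow_succ, ih, succ_nsmul]
    simp only [add_mul, mul_add, one_mul, mul_one, smul_mul_assoc, h, smul_zero, add_zero]
    abel

/-- A group with a faithful reducible representation reduces to smaller dimensions. -/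
theorem exists_of_invariant (F m : ℕ) (ρ : G →* Module.End K V) (hρ : Function.Injective ρ)
    (W : Submodule K V) (hW : ∀ g : G, ∀ x ∈ W, ρ g x ∈ W)
    (hG : (Nat.card G).factorization p ≤ m)
    (h1 : ∀ (K₁ : Subgroup G) [K₁.Normal], K₁ = (restrictHom ρ W hW).ker →
      ∃ A : Subgroup (G ⧸ K₁), AbP p A ∧ A.index ≤ F)
    (h2 : ∀ (K₂ : Subgroup G) [K₂.Normal], K₂ = (quotHom ρ W hW).ker →
      ∃ A : Subgroup (G ⧸ K₂), AbP p A ∧ A.index ≤ F) :
    ∃ A : Subgroup G, AbP p A ∧ A.index ≤ F * F * p ^ m := by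
  have hpp := hp.out
  obtain ⟨A₁, hA₁, hA₁i⟩ := h1 _ rfl
  obtain ⟨A₂, hA₂, hA₂i⟩ := h2 _ rfl
  set K₁ := (restrictHom ρ W hW).ker
  set K₂ := (quotHom ρ W hW).ker
  let B : Subgroup G := A₁.comap (QuotientGroup.mk' K₁) ⊓ A₂.comap (QuotientGroup.mk' K₂)
  have hBi : B.index ≤ F * F := by
    refine Subgroup.index_inf_le.trans ?_
    rw [Subgroup.index_comap_of_surjective _ (QuotientGroup.mk'_surjective K₁),
      Subgroup.index_comap_of_surjective _ (QuotientGroup.mk'_surjective K₂)]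
    exact Nat.mul_le_mul hA₁i hA₂i
  let U : Subgroup G := K₁ ⊓ K₂
  have hUB : U ≤ B := by
    refine fun x hx => mem_inf.2 ⟨mem_comap.2 ?_, mem_comap.2 ?_⟩
    · rw [QuotientGroup.mk'_apply, (QuotientGroup.eq_one_iff x).2 (mem_inf.1 hx).1]
      exact one_mem A₁
    · rw [QuotientGroup.mk'_apply, (QuotientGroup.eq_one_iff x).2 (mem_inf.1 hx).2]
      exact one_mem A₂
  have hUp : ∀ x ∈ U, x ^ p = 1 := by
    intro x hx
    obtain ⟨hx1, hx2⟩ := mem_inf.1 hx
    set ν := ρ x - 1 with hν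
    have hνW : ∀ w ∈ W, ν w = 0 := by
      intro w hw
      have := LinearMap.congr_fun (MonoidHom.mem_ker.1 hx1) ⟨w, hw⟩
      have h' : ρ x w = w := congrArg Subtype.val this
      simp [hν, h']
    have hνV : ∀ y, ν y ∈ W := by
      intro y
      have := LinearMap.congr_fun (MonoidHom.mem_ker.1 hx2) (Submodule.Quotient.mk y)
      have h' : (Submodule.Quotient.mk (ρ x y) : V ⧸ W) = Submodule.Quotient.mk y := this
      simpa [hν] using (Submodule.Quotient.eq W).1 h'
    have hsq : ν * ν = 0 := LinearMap.ext fun y => hνW _ (hνV y)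
    have hx' : ρ x = 1 + ν := by rw [hν]; abel
    refine hρ ?_
    rw [map_pow, hx', one_add_pow_of_sq_zero hsq, map_one, ← Nat.cast_smul_eq_nsmul K p ν,
      CharP.cast_eq_zero, zero_smul, add_zero]
  have hUpg : IsPGroup p U := fun x => ⟨1, Subtype.ext (by simpa using hUp x.1 x.2)⟩
  obtain ⟨k, hk⟩ := IsPGroup.iff_card.1 hUpg
  have hkm : k ≤ m := by
    refine le_trans ?_ hG
    exact (Nat.Prime.pow_dvd_iff_le_factorization hpp Nat.card_pos.ne').1
      (hk ▸ Subgroup.card_subgroup_dvd_card U)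
  -- a complement of `U` in `B`
  have : (U.subgroupOf B).Normal := inferInstance
  let ψ : B →* ↥A₁ × ↥A₂ :=
    { toFun := fun x => (⟨(x.1 : G ⧸ K₁), (mem_inf.1 x.2).1⟩, ⟨(x.1 : G ⧸ K₂), (mem_inf.1 x.2).2⟩)
      map_one' := rfl
      map_mul' := fun _ _ => rfl }
  have hψker : ψ.ker = U.subgroupOf B := by
    ext x
    simp only [MonoidHom.mem_ker, mem_subgroupOf, U, mem_inf]
    rw [← QuotientGroup.eq_one_iff (N := K₁), ← QuotientGroup.eq_one_iff (N := K₂)]
    exact ⟨fun h => ⟨congrArg (fun z => z.1.1) h, congrArg (fun z => z.2.1) h⟩,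
      fun h => Prod.ext (Subtype.ext h.1) (Subtype.ext h.2)⟩
  have hidx : ¬ p ∣ (U.subgroupOf B).index := by
    intro h
    rw [← hψker, Subgroup.index_ker] at h
    have h' := h.trans (Subgroup.card_subgroup_dvd_card ψ.range)
    rw [Nat.card_prod] at h'
    exact (hpp.dvd_mul.1 h').elim (hA₁.not_dvd_card hpp) (hA₂.not_dvd_card hpp)
  have hUcard : Nat.card (U.subgroupOf B) = p ^ k := by
    rw [Nat.card_congr (Subgroup.subgroupOfEquivOfLe hUB).toEquiv, hk]
  obtain ⟨Q, hQ⟩ := Subgroup.exists_right_complement'_of_coprime (N := U.subgroupOf B) (by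
    rw [hUcard]
    exact Nat.Coprime.pow_left _ ((hpp.coprime_iff_not_dvd).2 hidx))
  have hQU : ∀ x ∈ Q, x ∈ ψ.ker → x = 1 := by
    intro x hxQ hx
    rw [hψker] at hx
    exact Subgroup.mem_bot.1 (hQ.disjoint.le_bot ⟨hx, hxQ⟩)
  refine ⟨Q.map B.subtype, ?_, ?_⟩
  · refine AbP.map ⟨fun x hx y hy => ?_, fun x hx hdvd => ?_⟩ _ B.subtype_injective
    · have h' : ψ (x * y) = ψ (y * x) := by
        rw [map_mul, map_mul]
        exact Prod.ext (Subtype.ext (hA₁.1 _ (ψ x).1.2 _ (ψ y).1.2))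
          (Subtype.ext (hA₂.1 _ (ψ x).2.2 _ (ψ y).2.2))
      refine inv_mul_eq_one.1 (hQU _ ?_ ?_)
      · exact mul_mem (inv_mem (mul_mem hx hy)) (mul_mem hy hx)
      · rw [MonoidHom.mem_ker, map_mul, map_inv, h', inv_mul_cancel]
    · have hpow : x ^ orderOf (ψ x) = 1 := hQU _ (pow_mem hx _)
        (by rw [MonoidHom.mem_ker, map_pow, pow_orderOf_eq_one])
      have h' : p ∣ orderOf (ψ x) := hdvd.trans (orderOf_dvd_of_pow_eq_one hpow)
      rw [Prod.orderOf] at h'
      have h'' : p ∣ orderOf (ψ x).1 * orderOf (ψ x).2 := h'.trans (Nat.lcm_dvd_mul _ _)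
      rcases hpp.dvd_mul.1 h'' with h3 | h3
      · exact hA₁.2 _ (ψ x).1.2 (by rwa [Subgroup.orderOf_coe])
      · exact hA₂.2 _ (ψ x).2.2 (by rwa [Subgroup.orderOf_coe])
  · rw [Subgroup.index_map_subtype]
    have h' : Q.index = p ^ k := by rw [hQ.index_eq_card, hUcard]
    rw [h', Nat.mul_comm]
    exact Nat.mul_le_mul hBi (Nat.pow_le_pow_right hpp.pos hkm)

end Reducible

section Induction

variable {G : Type u} [Group G] [Finite G] {K : Type v} [Field K] [IsAlgClosed K] [CharP K p]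
  {V : Type v} [AddCommGroup V] [Module K V] [FiniteDimensional K V]

/-- The statement in dimension at most `n`. -/
def Bound (p n m F : ℕ) : Prop :=
  ∀ (G : Type u) [Group G] [Finite G] (K : Type v) [Field K] [IsAlgClosed K] [CharP K p]
    (V : Type v) [AddCommGroup V] [Module K V] [FiniteDimensional K V]
    (ρ : G →* Module.End K V), Function.Injective ρ → Module.finrank K V ≤ n →
      (Nat.card G).factorization p ≤ m → ∃ A : Subgroup G, AbP p A ∧ A.index ≤ F

theorem factorization_le_of_dvd {a b : ℕ} (hb : b ≠ 0) (h : a ∣ b) :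
    a.factorization p ≤ b.factorization p :=
  (Nat.factorization_le_iff_dvd (ne_zero_of_dvd_ne_zero hb h) hb).2 h p

theorem of_invariant {n m F : ℕ} (hF : Bound.{u, v} p n m F) (ρ : G →* Module.End K V)
    (hρ : Function.Injective ρ) (hn : Module.finrank K V ≤ n + 1)
    (hG : (Nat.card G).factorization p ≤ m) (W : Submodule K V) (hW0 : W ≠ ⊥) (hW1 : W ≠ ⊤)
    (hW : ∀ g : G, ∀ x ∈ W, ρ g x ∈ W) :
    ∃ A : Subgroup G, AbP p A ∧ A.index ≤ F * F * p ^ m := by
  have key : ∀ (W' : Type v) [AddCommGroup W'] [Module K W'] [FiniteDimensional K W']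
      (σ : G →* Module.End K W') (K₁ : Subgroup G) [K₁.Normal],
      Module.finrank K W' ≤ n → K₁ = σ.ker → ∃ A : Subgroup (G ⧸ K₁), AbP p A ∧ A.index ≤ F := by
    intro W' _ _ _ σ K₁ _ hdim hK
    subst hK
    have hc : (Nat.card (G ⧸ σ.ker)).factorization p ≤ m :=
      le_trans (factorization_le_of_dvd Nat.card_pos.ne' (Subgroup.card_quotient_dvd_card _)) hG
    have hi : Function.Injective (QuotientGroup.lift σ.ker σ le_rfl) := by
      intro a b
      induction a using QuotientGroup.induction_on with | _ x => ?_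
      induction b using QuotientGroup.induction_on with | _ y => ?_
      intro h
      rw [QuotientGroup.lift_mk, QuotientGroup.lift_mk] at h
      rw [QuotientGroup.eq, MonoidHom.mem_ker, map_mul, ← h, ← map_mul, inv_mul_cancel, map_one]
    exact hF (G ⧸ σ.ker) K W' (QuotientGroup.lift σ.ker σ le_rfl) hi hdim hc
  refine exists_of_invariant F m ρ hρ W hW hG
    (fun K₁ _ h => key W (restrictHom ρ W hW) K₁ ?_ h)
    (fun K₂ _ h => key (V ⧸ W) (quotHom ρ W hW) K₂ ?_ h)
  · have := Submodule.finrank_lt hW1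
    omega
  · have h1 := Submodule.finrank_quotient_add_finrank W
    have h2 : 0 < Module.finrank K W := Nat.pos_of_ne_zero fun h0 =>
      hW0 (Submodule.finrank_eq_zero.1 h0)
    omega

theorem eigen_spec (f : Module.End K V) [Nontrivial V] :
    ∃ μ : K, f.eigenspace μ ≠ ⊥ ∧ (f.eigenspace μ = ⊤ → f = μ • 1) := by
  obtain ⟨μ, hμ⟩ := Module.End.exists_eigenvalue f
  refine ⟨μ, hμ, fun h => LinearMap.ext fun x => ?_⟩
  have : x ∈ f.eigenspace μ := h ▸ Submodule.mem_top
  simpa using Module.End.mem_eigenspace_iff.1 this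

theorem eigen_invariant (ρ : G →* Module.End K V) {x g : G} (h : g * x = x * g) (μ : K) :
    ∀ v ∈ (ρ x).eigenspace μ, ρ g v ∈ (ρ x).eigenspace μ := by
  intro v hv
  rw [Module.End.mem_eigenspace_iff] at hv ⊢
  rw [← Module.End.mul_apply, ← map_mul, ← h, map_mul, Module.End.mul_apply, hv, map_smul]

/-- Conjugation by an element of the group, as an algebra endomorphism. -/
def conjAlg (ρ : G →* Module.End K V) (g : G) : Module.End K V →ₐ[K] Module.End K V where
  toFun x := ρ g * x * ρ g⁻¹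
  map_one' := by rw [mul_one, ← map_mul, mul_inv_cancel, map_one]
  map_mul' x y := by
    have : ρ g⁻¹ * ρ g = 1 := by rw [← map_mul, inv_mul_cancel, map_one]
    calc ρ g * (x * y) * ρ g⁻¹ = ρ g * x * 1 * y * ρ g⁻¹ := by simp only [mul_assoc, one_mul]
      _ = _ := by rw [← this]; simp only [mul_assoc]
  map_zero' := by simp
  map_add' x y := by simp [mul_add, add_mul]
  commutes' r := by
    rw [(Algebra.commutes r (ρ g)).symm, mul_assoc, ← map_mul, mul_inv_cancel, map_one, mul_one]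

/-- The automiser of a commutative `p'`-subgroup is bounded. -/
theorem automiser_le (ρ : G →* Module.End K V) (hρ : Function.Injective ρ) {n : ℕ}
    (hn : Module.finrank K V ≤ n) (E : Subgroup G) (hE : AbP p E) :
    (centralizer (E : Set G)).relIndex (normalizer (E : Set G)) ≤
      (n * n + 1) ^ (n * n) := by
  classical
  set 𝔄 : Subalgebra K (Module.End K V) := Algebra.adjoin K (ρ '' (E : Set G)) with h𝔄
  have hmem : ∀ e : G, e ∈ E → ρ e ∈ 𝔄 := fun e he => Algebra.subset_adjoin ⟨e, he, rfl⟩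
  letI : CommRing 𝔄 := Algebra.adjoinCommRingOfComm K (by
    rintro _ ⟨a, ha, rfl⟩ _ ⟨b, hb, rfl⟩
    rw [← map_mul, ← map_mul, hE.1 a ha b hb])
  have hsep : ∀ u : G, ∀ hu : u ∈ E,
      (∀ χ : 𝔄 →ₐ[K] K, χ ⟨ρ u, hmem u hu⟩ = 1) → u = 1 := by
    intro u hu hχ
    set a : 𝔄 := ⟨ρ u, hmem u hu⟩ with ha
    have hnil : IsNilpotent (a - 1) := by
      rw [nilpotent_iff_mem_prime]
      intro J hJ
      have : Algebra.IsIntegral K (𝔄 ⧸ J) := Algebra.IsIntegral.of_finite K _
      have hb := IsAlgClosed.algebraMap_bijective_of_isIntegral (k := K) (K := 𝔄 ⧸ J)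
      let e : K ≃ₐ[K] (𝔄 ⧸ J) := AlgEquiv.ofBijective (Algebra.ofId K (𝔄 ⧸ J)) hb
      have h1 : e.symm (Ideal.Quotient.mkₐ K J a) = 1 :=
        hχ (e.symm.toAlgHom.comp (Ideal.Quotient.mkₐ K J))
      have h2 : Ideal.Quotient.mkₐ K J a = 1 := by
        rw [← e.apply_symm_apply (Ideal.Quotient.mkₐ K J a), h1, map_one]
      rw [← Ideal.Quotient.eq_zero_iff_mem, ← Ideal.Quotient.mkₐ_eq_mk K, map_sub, h2, map_one,
        sub_self]
    obtain ⟨r, hr⟩ := hnil
    -- `ρ u` is unipotent and of order prime to `p`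
    have hpr : a ^ p ^ r = 1 := by
      rcases subsingleton_or_nontrivial 𝔄 with h | h
      · exact Subsingleton.elim _ _
      have : CharP 𝔄 p := charP_of_injective_algebraMap (algebraMap K 𝔄).injective p
      have h0 : (a - 1) ^ p ^ r = 0 :=
        pow_eq_zero_of_le (Nat.lt_pow_self hp.out.one_lt).le hr
      rwa [sub_pow_char_pow, one_pow, sub_eq_zero] at h0
    have : u ^ p ^ r = 1 := hρ (by
      rw [map_pow, map_one]
      exact congrArg Subtype.val hpr)
    obtain ⟨j, -, hj⟩ := (Nat.dvd_prime_pow hp.out).1 (orderOf_dvd_of_pow_eq_one this)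
    have hj0 : j = 0 := by
      by_contra h0
      exact hE.2 u hu (hj ▸ dvd_pow_self p h0)
    rw [hj0, pow_zero, orderOf_eq_one_iff] at hj
    exact hj
  have hmap : ∀ g : G, g ∈ normalizer (E : Set G) → ∀ x : 𝔄, conjAlg ρ g x ∈ 𝔄 := by
    intro g hg x
    have hle : 𝔄.map (conjAlg ρ g) ≤ 𝔄 := by
      rw [h𝔄, AlgHom.map_adjoin]
      refine Algebra.adjoin_le ?_
      rintro _ ⟨_, ⟨e, he, rfl⟩, rfl⟩
      have : conjAlg ρ g (ρ e) = ρ (g * e * g⁻¹) := by
        show ρ g * ρ e * ρ g⁻¹ = _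
        rw [map_mul, map_mul]
      rw [this]
      exact hmem _ ((mem_normalizer_iff.1 hg e).1 he)
    exact hle ⟨x.1, x.2, rfl⟩
  let f : ↥(normalizer (E : Set G)) → (𝔄 →ₐ[K] K) → (𝔄 →ₐ[K] K) := fun g χ =>
    χ.comp (((conjAlg ρ g).comp 𝔄.val).codRestrict 𝔄 (hmap g g.2))
  have : Finite (𝔄 →ₐ[K] K) := Finite.algHom K 𝔄 K
  have hΦ : Nat.card (𝔄 →ₐ[K] K) ≤ n * n :=
    (card_algHom_le_finrank K 𝔄 K).trans ((Submodule.finrank_le (Subalgebra.toSubmodule 𝔄)).trans
      (by rw [Module.finrank_linearMap]; exact Nat.mul_le_mul hn hn))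
  have hinj : Function.Injective
      (fun q : ↥(normalizer (E : Set G)) ⧸
        (centralizer (E : Set G)).subgroupOf (normalizer (E : Set G)) => f q.out) := by
    intro q q' heq
    rw [← q.out_eq', ← q'.out_eq', QuotientGroup.eq, mem_subgroupOf]
    have key : ∀ a ∈ E, q.out.1 * a * q.out.1⁻¹ = q'.out.1 * a * q'.out.1⁻¹ := by
      intro a ha
      set g := q.out.1
      set h := q'.out.1
      have hga : g * a * g⁻¹ ∈ E := (mem_normalizer_iff.1 q.out.2 a).1 ha
      have hha : h * a * h⁻¹ ∈ E := (mem_normalizer_iff.1 q'.out.2 a).1 ha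
      refine mul_inv_eq_one.1 (hsep _ (mul_mem hga (inv_mem hha)) fun χ => ?_)
      have e0 := DFunLike.congr_fun (congrFun heq χ) ⟨ρ a, hmem a ha⟩
      have e1 : χ ⟨ρ (g * a * g⁻¹), hmem _ hga⟩ = χ ⟨ρ (h * a * h⁻¹), hmem _ hha⟩ := by
        convert e0 using 1 <;>
          exact congrArg χ (Subtype.ext (by
            show ρ _ = ρ _ * ρ a * ρ _
            rw [map_mul, map_mul]))
      have e2 : (⟨ρ (g * a * g⁻¹ * (h * a * h⁻¹)⁻¹), hmem _ (mul_mem hga (inv_mem hha))⟩ : 𝔄) *
          ⟨ρ (h * a * h⁻¹), hmem _ hha⟩ = ⟨ρ (g * a * g⁻¹), hmem _ hga⟩ :=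
        Subtype.ext (by
          show ρ _ * ρ _ = ρ _
          rw [← map_mul, inv_mul_cancel_right])
      have e3 : (⟨ρ (h * a * h⁻¹), hmem _ hha⟩ : 𝔄) *
          ⟨ρ (h * a * h⁻¹)⁻¹, hmem _ (inv_mem hha)⟩ = 1 :=
        Subtype.ext (by
          show ρ _ * ρ _ = 1
          rw [← map_mul, mul_inv_cancel, map_one])
      have e4 : χ ⟨ρ (h * a * h⁻¹), hmem _ hha⟩ ≠ 0 := fun h0 => by
        have := congrArg χ e3
        rw [map_mul, h0, zero_mul, map_one] at this
        exact zero_ne_one this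
      refine mul_right_cancel₀ e4 ?_
      rw [← map_mul, e2, one_mul, e1]
    refine mem_centralizer_iff.2 fun a ha => ?_
    have := key a ha
    show a * ((q.out.1)⁻¹ * q'.out.1) = (q.out.1)⁻¹ * q'.out.1 * a
    calc a * ((q.out.1)⁻¹ * q'.out.1)
        = (q.out.1)⁻¹ * (q.out.1 * a * (q.out.1)⁻¹) * q'.out.1 := by group
      _ = (q.out.1)⁻¹ * (q'.out.1 * a * (q'.out.1)⁻¹) * q'.out.1 := by rw [this]
      _ = (q.out.1)⁻¹ * q'.out.1 * a := by group
  rw [Subgroup.relIndex, Subgroup.index_eq_card]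
  refine (Nat.card_le_card_of_injective _ hinj).trans ?_
  rw [Nat.card_fun]
  exact (Nat.pow_le_pow_left (hΦ.trans (Nat.le_succ _)) _).trans
    (Nat.pow_le_pow_right (Nat.succ_pos _) hΦ)

/-- The structure hypotheses hold for irreducible linear groups. -/
theorem exists_ctx {n m F : ℕ} (hF : Bound.{u, v} p n m F) (ρ : G →* Module.End K V)
    (hρ : Function.Injective ρ) (hn : Module.finrank K V = n + 1)
    (hG : (Nat.card G).factorization p ≤ m)
    (hirr : ∀ W : Submodule K V, (∀ g : G, ∀ x ∈ W, ρ g x ∈ W) → W = ⊥ ∨ W = ⊤) :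
    Nonempty (Ctx p (F * F * p ^ m + 1) (((n + 1) * (n + 1) + 1) ^ ((n + 1) * (n + 1))) (n + 1)
      ((n + 1) * (n + 1)) G) := by
  classical
  have : Nontrivial V := Module.nontrivial_of_finrank_eq_succ hn
  have hscal : ∀ g ∈ center G, ∃ μ : K, ρ g = μ • 1 := by
    intro g hg
    obtain ⟨μ, hne, htop⟩ := eigen_spec (ρ g)
    exact ⟨μ, htop ((hirr _ fun h => eigen_invariant ρ (mem_center_iff.1 hg h) μ).resolve_left
      hne)⟩
  have hscal_eq : ∀ {a b : K}, a • (1 : Module.End K V) = b • 1 → a = b := by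
    intro a b h
    exact smul_left_injective K (one_ne_zero (α := Module.End K V)) h
  have hscalar_center : ∀ (g : G) (μ : K), ρ g = μ • 1 → g ∈ center G := by
    intro g μ hg
    refine mem_center_iff.2 fun h => hρ ?_
    rw [map_mul, map_mul, hg, mul_smul_comm, smul_mul_assoc, mul_one, one_mul]
  refine ⟨{
    hp := hp.out
    hc := Nat.le_add_left 1 _
    hZ := ⟨fun x hx y _ => (mem_center_iff.1 hx y).symm, ?_⟩
    hC := ?_
    hN := fun E hE => automiser_le ρ hρ (le_of_eq hn) E hE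
    rk := fun D => Module.finrank K (Submodule.span K (ρ '' (D : Set G)))
    rk_le := fun D => (Submodule.finrank_le _).trans (by rw [Module.finrank_linearMap, hn])
    cent_le := ?_
    hcomm := ?_ }⟩
  · intro x hx hdvd
    obtain ⟨j, hj⟩ := hdvd
    have hj0 : 0 < j := by
      rcases Nat.eq_zero_or_pos j with h | h
      · rw [h, mul_zero] at hj
        exact absurd hj (orderOf_pos x).ne'
      · exact h
    obtain ⟨μ, hμ⟩ := hscal (x ^ j) (pow_mem hx j)
    have h1 : μ ^ p • (1 : Module.End K V) = (1 : K) • 1 := by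
      rw [one_smul, ← one_pow (M := Module.End K V) p, ← smul_pow, ← hμ, one_pow, ← map_pow,
        ← pow_mul, Nat.mul_comm, ← hj, pow_orderOf_eq_one, map_one]
    have h2 : μ = 1 := by
      have h3 : (μ - 1) ^ p = 0 := by rw [sub_pow_char, hscal_eq h1, one_pow, sub_self]
      exact sub_eq_zero.1 (IsReduced.eq_zero _ ⟨p, h3⟩)
    have h3 : x ^ j = 1 := hρ (by rw [hμ, h2, one_smul, map_one])
    have h4 := Nat.le_of_dvd hj0 (orderOf_dvd_of_pow_eq_one h3)
    rw [hj] at h4
    have := hp.out.two_le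
    nlinarith
  · intro x hx
    obtain ⟨μ, hne, htop⟩ := eigen_spec (ρ x)
    set H := centralizer ({x} : Set G) with hH
    obtain ⟨A, hA, hAi⟩ := of_invariant hF (ρ.comp H.subtype) (hρ.comp H.subtype_injective)
      (le_of_eq hn) ((factorization_le_of_dvd Nat.card_pos.ne'
        (Subgroup.card_subgroup_dvd_card H)).trans hG) ((ρ x).eigenspace μ) hne
      (fun h => hx (hscalar_center x μ (htop h)))
      (fun g => eigen_invariant ρ (mem_centralizer_singleton_iff.1 g.2) μ)
    refine ⟨A.map H.subtype, hA.map _ H.subtype_injective, map_subtype_le A, ?_⟩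
    rw [Subgroup.relIndex, show (A.map H.subtype).subgroupOf H = A from
      comap_map_eq_self_of_injective H.subtype_injective A]
    exact hAi.trans (Nat.le_succ _)
  · intro D D' hDD' hrk g hg
    have hspan : Submodule.span K (ρ '' (D : Set G)) = Submodule.span K (ρ '' (D' : Set G)) :=
      Submodule.eq_of_le_of_finrank_le (Submodule.span_mono (Set.image_mono hDD')) hrk
    refine mem_centralizer_iff.2 fun y hy => hρ ?_
    have hy' : ρ y ∈ Submodule.span K (ρ '' (D : Set G)) :=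
      hspan ▸ Submodule.subset_span ⟨y, hy, rfl⟩
    rw [map_mul, map_mul]
    suffices h : ∀ a ∈ Submodule.span K (ρ '' (D : Set G)), a * ρ g = ρ g * a from h _ hy'
    intro a ha
    induction ha using Submodule.span_induction with
    | mem a ha =>
      obtain ⟨d, hd, rfl⟩ := ha
      rw [← map_mul, ← map_mul, mem_centralizer_iff.1 hg d hd]
    | zero => simp
    | add a b _ _ ha hb => rw [add_mul, mul_add, ha, hb]
    | smul r a _ ha => rw [smul_mul_assoc, mul_smul_comm, ha]
  · intro x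
    set Y := {g : G // ⁅g, x⁆ ∈ center G}
    choose μ hμ using fun y : Y => hscal _ y.2
    have hroot : ∀ y, μ y ∈ Polynomial.nthRootsFinset (n + 1) (1 : K) := by
      intro y
      rw [Polynomial.mem_nthRootsFinset (Nat.succ_pos n)]
      let δ : G →* K := LinearMap.det.comp ρ
      have h1 : δ ⁅y.1, x⁆ = 1 := by
        rw [commutatorElement_def, map_mul, map_mul, map_mul]
        calc δ y.1 * δ x * δ y.1⁻¹ * δ x⁻¹ = (δ y.1 * δ y.1⁻¹) * (δ x * δ x⁻¹) := by ring
          _ = 1 := by rw [← map_mul, ← map_mul, mul_inv_cancel, mul_inv_cancel, map_one, one_mul]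
      rw [← h1]
      show _ = LinearMap.det (ρ _)
      rw [hμ y, LinearMap.det_smul, map_one, mul_one, hn]
    let rep : {r // r ∈ Polynomial.nthRootsFinset (n + 1) (1 : K)} → G := fun r =>
      if h : ∃ y : Y, μ y = r.1 then h.choose.1 else 1
    have hmem : ∀ y : Y, (rep ⟨μ y, hroot y⟩)⁻¹ * y.1 ∈ centralizer ({x} : Set G) := by
      intro y
      have hex : ∃ y' : Y, μ y' = μ y := ⟨y, rfl⟩
      have hrep : rep ⟨μ y, hroot y⟩ = hex.choose.1 := dif_pos hex
      rw [hrep]
      set y' := hex.choose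
      have he : ⁅y'.1, x⁆ = ⁅y.1, x⁆ := hρ (by rw [hμ, hμ, hex.choose_spec])
      rw [commutatorElement_def, commutatorElement_def] at he
      have he' := mul_right_cancel he
      refine mem_centralizer_singleton_iff.2 ?_
      calc y'.1⁻¹ * y.1 * x = y'.1⁻¹ * (y.1 * x * y.1⁻¹) * y.1 := by group
        _ = y'.1⁻¹ * (y'.1 * x * y'.1⁻¹) * y.1 := by rw [he']
        _ = x * (y'.1⁻¹ * y.1) := by group
    let φ : Y → {r // r ∈ Polynomial.nthRootsFinset (n + 1) (1 : K)} ×
        ↥(centralizer ({x} : Set G)) := fun y => (⟨μ y, hroot y⟩, ⟨_, hmem y⟩)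
    have hφ : Function.Injective φ := by
      intro y y' h
      simp only [φ, Prod.mk.injEq, Subtype.mk.injEq] at h
      obtain ⟨h1, h2⟩ := h
      have : (⟨μ y, hroot y⟩ : {r // r ∈ Polynomial.nthRootsFinset (n + 1) (1 : K)})
          = ⟨μ y', hroot y'⟩ := Subtype.ext h1
      rw [this] at h2
      exact Subtype.ext (mul_left_cancel h2)
    refine (Nat.card_le_card_of_injective φ hφ).trans ?_
    rw [Nat.card_prod, Nat.card_eq_finsetCard]
    refine Nat.mul_le_mul ?_ le_rfl
    rw [Polynomial.nthRootsFinset_def]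
    exact (Multiset.toFinset_card_le _).trans (Polynomial.card_nthRoots _ _)

end Induction

/-- The bound, by induction on the dimension. -/
theorem exists_linear_bound (p : ℕ) [Fact p.Prime] (n m : ℕ) :
    ∃ F : ℕ, Bound.{u, v} p n m F := by
  classical
  induction n with
  | zero =>
    refine ⟨1, fun G _ _ K _ _ _ V _ _ _ ρ hρ hn _ => ⟨⊥, ?_, ?_⟩⟩
    · refine ⟨fun x hx y hy => ?_, fun x hx => ?_⟩
      · rw [mem_bot.1 hx, mem_bot.1 hy]
      · rw [mem_bot.1 hx, orderOf_one]
        exact (Fact.out : p.Prime).not_dvd_one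
    · have : Subsingleton V := Module.finrank_zero_iff.1 (Nat.le_zero.1 hn)
      have : Subsingleton G := ⟨fun a b => hρ (Subsingleton.elim _ _)⟩
      rw [Subgroup.index_bot]
      exact le_of_eq (Nat.card_of_subsingleton (1 : G))
  | succ n ih =>
    obtain ⟨F, hF⟩ := ih
    obtain ⟨F', hF'⟩ := exists_bound.{u} (F * F * p ^ m + 1)
      (((n + 1) * (n + 1) + 1) ^ ((n + 1) * (n + 1))) (n + 1) ((n + 1) * (n + 1))
    refine ⟨max (max F (F * F * p ^ m)) F', fun G _ _ K _ _ _ V _ _ _ ρ hρ hn hG => ?_⟩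
    rcases Nat.lt_or_ge (Module.finrank K V) (n + 1) with hlt | hge
    · obtain ⟨A, hA, hAi⟩ := hF G K V ρ hρ (by omega) hG
      exact ⟨A, hA, hAi.trans (le_max_of_le_left (le_max_left _ _))⟩
    by_cases hirr : ∀ W : Submodule K V, (∀ g : G, ∀ x ∈ W, ρ g x ∈ W) → W = ⊥ ∨ W = ⊤
    · obtain ⟨κ⟩ := exists_ctx hF ρ hρ (le_antisymm hn hge) hG hirr
      obtain ⟨A, hA, hAi⟩ := hF' κ
      exact ⟨A, hA, hAi.trans (le_max_right _ _)⟩
    · push Not at hirr
      obtain ⟨W, hW, hW0, hW1⟩ := hirr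
      obtain ⟨A, hA, hAi⟩ := of_invariant hF ρ hρ hn hG W hW0 hW1 hW
      exact ⟨A, hA, hAi.trans (le_max_of_le_left (le_max_right _ _))⟩

end Cfsg.Agent.H68.JordanP
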